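/-
Orthogonal families of non-singular vectors, Witt's theorem for them, and the decomposition of an element of
order three of an orthogonal group over the field with three elements into commuting Siegel transformations.
-/
import Cfsg.Agent.Orth.Simple

set_option autoImplicit false

namespace CA.O3
open Cfsg.Agent.Orth QuadraticMap Module

section general
variable {F V : Type*} [Field F] [AddCommGroup V] [Module F V] {Q : QuadraticForm F V}

/-- a list of pairwise orthogonal non-singular vectors -/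
def OrthL (Q : QuadraticForm F V) (l : List V) : Prop :=
  l.Pairwise (fun a b => polar Q a b = 0) ∧ ∀ a ∈ l, Q a ≠ 0

lemma orthL_cons {a : V} {l : List V} : OrthL Q (a :: l) ↔ Q a ≠ 0 ∧ (∀ b ∈ l, polar Q a b = 0) ∧ OrthL Q l := by
  simp only [OrthL, List.pairwise_cons, List.mem_cons, forall_eq_or_imp]; tauto

lemma orthL_nil : OrthL Q [] := by simp [OrthL]

lemma OrthL.perm {l l' : List V} (h : OrthL Q l) (hp : l.Perm l') : OrthL Q l' :=
  ⟨(hp.pairwise_iff fun h => by rwa [polar_comm]).1 h.1, fun a ha => h.2 a (hp.mem_iff.2 ha)⟩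

lemma OrthL.sublist {l l' : List V} (h : OrthL Q l) (hp : l'.Sublist l) : OrthL Q l' :=
  ⟨h.1.sublist hp, fun a ha => h.2 a (hp.subset ha)⟩

lemma OrthL.map {l : List V} (h : OrthL Q l) (g : OG Q) : OrthL Q (l.map g.1) := by
  refine ⟨List.pairwise_map.2 (h.1.imp fun h => by rwa [OG.map_polar]), fun a ha => ?_⟩
  obtain ⟨b, hb, rfl⟩ := List.mem_map.1 ha
  rw [OG.map_Q]; exact h.2 b hb

lemma OrthL.not_mem_span (h2 : (2 : F) ≠ 0) {a : V} {l : List V} (h : OrthL Q (a :: l)) :
    a ∉ Submodule.span F {x | x ∈ l} := by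
  obtain ⟨h1, h3, -⟩ := orthL_cons.1 h
  intro ha
  have : ∀ x ∈ Submodule.span F {x | x ∈ l}, polar Q a x = 0 := by
    intro x hx
    induction hx using Submodule.span_induction with
    | mem x hx => exact h3 x hx
    | zero => simp
    | add x y _ _ hx hy => rw [polar_add_right, hx, hy, add_zero]
    | smul c x _ hx => rw [polar_smul_right, hx, smul_zero]
  have := this a ha
  rw [polar_self'] at this
  exact mul_ne_zero h2 h1 this

lemma OrthL.finrank_span [FiniteDimensional F V] (h2 : (2 : F) ≠ 0) {l : List V} (h : OrthL Q l) :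
    finrank F (Submodule.span F {x | x ∈ l}) = l.length := by
  induction l with
  | nil => simp
  | cons a l ih =>
    have h1 : {x | x ∈ a :: l} = insert a {x | x ∈ l} := by ext; simp
    have h3 := h.not_mem_span h2
    have h4 : a ≠ 0 := fun h0 => h3 (h0 ▸ Submodule.zero_mem _)
    have h5 := Submodule.finrank_sup_add_finrank_inf_eq (Submodule.span F {a}) (Submodule.span F {x | x ∈ l})
    have h6 : Submodule.span F {a} ⊓ Submodule.span F {x | x ∈ l} = ⊥ :=
      disjoint_iff.1 ((Submodule.disjoint_span_singleton' h4).2 h3).symm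
    rw [h6, finrank_bot, finrank_span_singleton h4, ih (orthL_cons.1 h).2.2] at h5
    rw [h1, Submodule.span_insert, List.length_cons]
    omega

lemma OrthL.length_le [FiniteDimensional F V] (h2 : (2 : F) ≠ 0) {l : List V} (h : OrthL Q l) :
    l.length ≤ finrank F V := h.finrank_span h2 ▸ Submodule.finrank_le _

lemma exists_map_nonsing (h2 : (2 : F) ≠ 0) {a b : V} (ha : Q a ≠ 0) (hab : Q a = Q b) :
    ∃ g : OG Q, g.1 a = b ∧ ∀ w, polar Q a w = 0 → polar Q b w = 0 → g.1 w = w := by
  by_cases h : Q (a - b) = 0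
  · have h3 : polar Q a b = 2 * Q a := by
      rw [Q_sub] at h; linear_combination -h - hab
    have h4 : Q (a + b) = 4 * Q a := by rw [Q_add, h3]; linear_combination -hab
    have h5 : (4 : F) ≠ 0 := by rw [show (4 : F) = 2 * 2 by norm_num]; exact mul_ne_zero h2 h2
    refine ⟨refl Q b * refl Q (a + b), ?_, fun w h1 h2 => ?_⟩
    · have : (refl Q (a + b)).1 a = -b := by
        rw [refl_apply, h4, polar_add_right, polar_self', h3, show 2 * Q a + 2 * Q a = 4 * Q a by ring,
          div_self (mul_ne_zero h5 ha)]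
        module
      rw [OG.mul_apply, this, map_neg, refl_apply_self (hab ▸ ha), neg_neg]
    · rw [OG.mul_apply, refl_apply_of_orth (w := a + b) (by rw [polar_comm, polar_add_left, h1, h2, add_zero]),
        refl_apply_of_orth (by rw [polar_comm]; exact h2)]
  · refine ⟨refl Q (a - b), ?_, fun w h1 h2 => ?_⟩
    · have : polar Q a (a - b) = Q (a - b) := by qsimp; linear_combination hab
      rw [refl_apply, this, div_self h]; module
    · rw [refl_apply_of_orth]
      rw [polar_comm, polar_sub_left, h1, h2, sub_zero]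

/-- Witt's theorem for orthogonal families. -/
theorem witt (h2 : (2 : F) ≠ 0) {l l' : List V} (h : OrthL Q l) (h' : OrthL Q l') (hQ : l.map Q = l'.map Q) :
    ∃ g : OG Q, l.map g.1 = l' := by
  induction l generalizing l' with
  | nil => exact ⟨1, by simpa using hQ.symm⟩
  | cons a l ih =>
    cases l' with
    | nil => simp at hQ
    | cons b l' =>
      simp only [List.map_cons, List.cons.injEq] at hQ
      obtain ⟨h1, h3, h4⟩ := orthL_cons.1 h
      obtain ⟨h1', h3', h4'⟩ := orthL_cons.1 h'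
      obtain ⟨g, hg⟩ := ih h4 h4' hQ.2
      obtain ⟨k, hk, hk'⟩ := exists_map_nonsing h2 (a := g.1 a) (b := b) (by rwa [OG.map_Q])
        (by rw [OG.map_Q, hQ.1])
      refine ⟨k * g, ?_⟩
      rw [List.map_cons, OG.mul_apply, hk]
      congr 1
      rw [← hg]
      refine List.map_congr_left fun x hx => ?_
      rw [OG.mul_apply]
      refine hk' _ (by rw [OG.map_polar]; exact h3 x hx) (h3' _ ?_)
      rw [← hg]; exact List.mem_map_of_mem hx

lemma OrthL.exists_proj (h2 : (2 : F) ≠ 0) {l : List V} (h : OrthL Q l) (v : V) :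
    ∃ v', (∀ s ∈ l, polar Q v' s = 0) ∧ v' - v ∈ Submodule.span F {x | x ∈ l} := by
  induction l with
  | nil => exact ⟨v, by simp, by simp⟩
  | cons a l ih =>
    obtain ⟨h1, h3, h4⟩ := orthL_cons.1 h
    obtain ⟨v', hv, hv'⟩ := ih h4
    refine ⟨v' - (polar Q v' a / (2 * Q a)) • a, ?_, ?_⟩
    · intro s hs
      rcases List.mem_cons.1 hs with rfl | hs
      · qsimp; field_simp; ring
      · qsimp; rw [hv s hs, h3 s hs]; ring
    · rw [sub_right_comm]
      refine Submodule.sub_mem _ (Submodule.span_mono (fun x hx => List.mem_cons_of_mem _ hx) hv')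
        (Submodule.smul_mem _ _ (Submodule.subset_span List.mem_cons_self))

open Classical in
/-- the Siegel transformation as a total function -/
noncomputable def sg (Q : QuadraticForm F V) (u v : V) : OG Q :=
  if h : Q u = 0 ∧ polar Q u v = 0 then sieg u v h.1 h.2 else 1

lemma sg_eq {u v : V} (hu : Q u = 0) (hv : polar Q u v = 0) : sg Q u v = sieg u v hu hv := by
  rw [sg, dif_pos ⟨hu, hv⟩]

lemma sg_conj (g : OG Q) (u v : V) : g * sg Q u v * g⁻¹ = sg Q (g.1 u) (g.1 v) := by
  unfold sg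
  by_cases h : Q u = 0 ∧ polar Q u v = 0
  · rw [dif_pos h, dif_pos (by rwa [OG.map_Q, OG.map_polar]), sieg_conj]
  · rw [dif_neg h, dif_neg (by rwa [OG.map_Q, OG.map_polar])]; simp

lemma sg_mem_EE (u v : V) : sg Q u v ∈ EE Q := by
  unfold sg; split_ifs
  · exact sieg_mem_EE _ _
  · exact one_mem _

end general

section three
variable {V : Type*} [AddCommGroup V] [Module (ZMod 3) V] {Q : QuadraticForm (ZMod 3) V}

lemma two_ne : (2 : ZMod 3) ≠ 0 := by decide

lemma three_eq : (3 : ZMod 3) = 0 := rfl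

/-- the norms of the vectors of a block pattern -/
def pat : List (ZMod 3) → List (ZMod 3)
  | [] => []
  | ε :: t => if ε = 0 then 1 :: -1 :: 1 :: -1 :: pat t else 1 :: -1 :: ε :: pat t

/-- the product of Siegel transformations of a block pattern -/
noncomputable def blk (Q : QuadraticForm (ZMod 3) V) : List (ZMod 3) → List V → OG Q
  | [], _ => 1
  | ε :: t, l => if ε = 0 then sg Q (l.getD 0 0 + l.getD 1 0) (l.getD 2 0 + l.getD 3 0) * blk Q t (l.drop 4)
      else sg Q (l.getD 0 0 + l.getD 1 0) (l.getD 2 0) * blk Q t (l.drop 3)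

lemma blk_conj (g : OG Q) (t : List (ZMod 3)) (l : List V) : g * blk Q t l * g⁻¹ = blk Q t (l.map g.1) := by
  have h1 : ∀ (l : List V) i, (l.map g.1).getD i 0 = g.1 (l.getD i 0) := fun l i => by
    rw [← List.getD_map (f := g.1), map_zero]
  have h2 : ∀ a b : OG Q, g * (a * b) * g⁻¹ = g * a * g⁻¹ * (g * b * g⁻¹) := fun a b => by group
  induction t generalizing l with
  | nil => simp [blk]
  | cons ε t ih =>
    simp only [blk]
    split_ifs <;> rw [h2, ih, sg_conj, List.map_drop] <;> simp only [h1, map_add]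

lemma three_smul (v : V) : v + v + v = 0 := by
  have : (3 : ZMod 3) • v = 0 := by rw [show (3 : ZMod 3) = 0 from rfl, zero_smul]
  rw [← this]; module

/-- splitting off a Siegel transformation -/
lemma split {x : OG Q} (hx : x ^ 3 = 1) {e f : V} (h : HP Q e f) (he : x.1 e = e) (c : ZMod 3)
    (hc : x.1 (f - x.1 f) = f - x.1 f + c • e) :
    ∃ (u : V) (hu : polar Q e u = 0) (y : OG Q) (d : ZMod 3), u = f - x.1 f + d • e ∧ polar Q f u = 0 ∧
      x = sieg e u h.he hu * y ∧ y ^ 3 = 1 ∧ y.1 e = e ∧ y.1 f = f ∧ y.1 u = u := by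
  have h' : HP Q e (x.1 f) := by have := h.map x; rwa [he] at this
  have h0 := h.polar_sub h'
  set u0 := f - x.1 f with hu0
  let d := - polar Q f u0
  have hu : polar Q e (u0 + d • e) = 0 := by qsimp; rw [h0, h.he]; ring
  have hs : sieg e (u0 + d • e) h.he hu = sieg e u0 h.he h0 := sieg_add_smul d h.he h0
  have hf : polar Q f (u0 + d • e) = 0 := by qsimp; rw [h.hfe]; ring
  set s := sieg e (u0 + d • e) h.he hu with hsd
  have hcomm : x * s * x⁻¹ = s := by
    rw [hs, sieg_conj, sieg_congr _ _ he hc]; exact sieg_add_smul c h.he h0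
  have hcomm' : Commute s x := by
    change s * x = x * s
    conv_lhs => rw [← hcomm]
    group
  have hs3 : s ^ 3 = 1 := by
    rw [pow_succ, pow_two, hsd, sieg_mul, sieg_mul, sieg_congr _ _ rfl (three_smul _), sieg_zero]
  have hye : (s⁻¹ * x).1 e = e := by
    rw [OG.mul_apply, he]
    conv_lhs => rw [← sieg_apply_self h.he hu]
    exact OG.inv_apply_self _ _
  have hyf : (s⁻¹ * x).1 f = f := by
    rw [OG.mul_apply, ← sieg_map h h', ← hs]
    exact OG.inv_apply_self _ _
  refine ⟨u0 + d • e, hu, s⁻¹ * x, d, rfl, hf, (mul_inv_cancel_left _ _).symm, ?_, hye, hyf, ?_⟩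
  · rw [hcomm'.inv_left.mul_pow, inv_pow, hs3, hx]; simp
  · have h3 : (s⁻¹ * x) * s * (s⁻¹ * x)⁻¹ = s := by
      rw [mul_assoc s⁻¹, ← hcomm'.eq]; rw [mul_inv_rev, inv_inv]; group
    generalize s⁻¹ * x = y at h3 hye hyf
    have h4 := congrArg (fun g : OG Q => g.1 f) h3
    rw [hsd, sieg_conj] at h4
    have h5 : polar Q f (y.1 (u0 + d • e)) = 0 := by
      conv_lhs => rw [← hyf]
      rw [OG.map_polar, hf]
    simp only [sieg_apply, hye, OG.map_Q, h.hfe, hf, h5, zero_smul, add_zero, one_smul, sub_left_inj,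
      sub_right_inj] at h4
    exact h4

lemma orthL_HP {e f : V} (h : HP Q e f) {l : List V} (hl : OrthL Q l) (he : ∀ s ∈ l, polar Q e s = 0)
    (hf : ∀ s ∈ l, polar Q f s = 0) :
    OrthL Q ((-e - f) :: (-e + f) :: l) ∧ Q (-e - f) = 1 ∧ Q (-e + f) = -1 ∧ (-e - f) + (-e + f) = e := by
  have h1 : Q (-e - f) = 1 := by qsimp; rw [h.he, h.hf, h.hef]; ring
  have h2 : Q (-e + f) = -1 := by qsimp; rw [h.he, h.hf, h.hef]; ring
  refine ⟨?_, h1, h2, ?_⟩
  · simp only [orthL_cons, List.mem_cons, forall_eq_or_imp, h1, h2]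
    refine ⟨by decide, ⟨?_, fun s hs => ?_⟩, by decide, fun s hs => ?_, hl⟩
    · qsimp; rw [h.he, h.hf, h.hef, h.hfe]; ring
    · qsimp; rw [he s hs, hf s hs]; ring
    · qsimp; rw [he s hs, hf s hs]; ring
  · rw [← sub_eq_zero, ← neg_eq_zero, ← three_smul e]; module

/-- one block -/
lemma step (hQ : Nondeg Q) {x : OG Q} (hx : x ^ 3 = 1) (hx1 : x ≠ 1) {S : List V} (hS : OrthL Q S)
    (hfix : ∀ s ∈ S, x.1 s = s) :
    ∃ (ε : ZMod 3) (b : List V) (y : OG Q), OrthL Q (b ++ S) ∧ b.map Q = pat [ε] ∧ x = blk Q [ε] b * y ∧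
      y ^ 3 = 1 ∧ ∀ s ∈ b ++ S, y.1 s = s := by
  let N : V →ₗ[ZMod 3] V := x.1.toLinearMap - LinearMap.id
  have hN : ∀ v, N v = x.1 v - v := fun v => rfl
  have hxN : ∀ v, x.1 v = v + N v := fun v => by rw [hN]; abel
  have h3 : ∀ v, N (N (N v)) = 0 := fun v => by
    have := congrArg (fun g : OG Q => g.1 v) hx
    simp only [pow_succ, pow_zero, one_mul, OG.mul_apply, OG.one_apply] at this
    simp only [hN, map_sub, this]
    rw [← three_smul (x.1 v - x.1 (x.1 v))]; module
  have hB : ∀ a b, polar Q (N a) b + polar Q a (N b) + polar Q (N a) (N b) = 0 := fun a b => by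
    have := OG.map_polar x a b
    rw [hxN a, hxN b] at this
    revert this; qsimp; intro this; linear_combination this
  have hNS : ∀ s ∈ Submodule.span (ZMod 3) {x | x ∈ S}, N s = 0 := fun s hs => by
    have : Submodule.span (ZMod 3) {x | x ∈ S} ≤ LinearMap.ker N :=
      Submodule.span_le.2 fun s hs => by simp [hN, hfix s hs]
    exact this hs
  have hNS' : ∀ s ∈ Submodule.span (ZMod 3) {x | x ∈ S}, ∀ v, polar Q (N v) s = 0 := fun s hs v => by
    simpa [hNS s hs] using hB v s
  have hproj : ∀ v, ∃ v', (∀ s ∈ S, polar Q v' s = 0) ∧ N v' = N v ∧ ∀ w, polar Q (N w) v' = polar Q (N w) v :=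
    fun v => by
      obtain ⟨v', h1, h2⟩ := hS.exists_proj two_ne v
      refine ⟨v', h1, ?_, fun w => ?_⟩
      · rw [← sub_eq_zero, ← map_sub, hNS _ h2]
      · rw [← sub_eq_zero, ← polar_sub_right, hNS' _ h2]
  have hmem : ∀ s ∈ S, s ∈ Submodule.span (ZMod 3) {x | x ∈ S} := fun s hs => Submodule.subset_span hs
  have h12 : ∀ a b, polar Q (N a) (N (N b)) = 0 := fun a b => by simpa [h3] using hB a (N (N b))
  have hQ2 : ∀ a, Q (N (N a)) = 0 := fun a => by
    have := h12 (N a) a
    rw [polar_self'] at this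
    exact (mul_eq_zero.1 this).resolve_left two_ne
  have hQ1 : ∀ a, Q (N a) = polar Q (N (N a)) a := fun a => by
    have := hB a (N a)
    rw [polar_self', h12, polar_comm] at this
    linear_combination -this + Q (N a) * three_eq
  have hfixy : ∀ {e u : V} {he hu} {y : OG Q}, x = sieg e u he hu * y → ∀ s, x.1 s = s → polar Q s e = 0 →
      polar Q s u = 0 → y.1 s = s := fun {e u he hu y} hy s h1 h2 h3 => by
    have : y = (sieg e u he hu)⁻¹ * x := by rw [hy]; group
    rw [this, OG.mul_apply, h1, sieg_inv, sieg_apply_of_orth _ _ h2 (by rw [polar_neg_right, h3, neg_zero])]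
  by_cases hA : ∃ v, polar Q (N (N v)) v ≠ 0
  · obtain ⟨v0, hv0⟩ := hA
    obtain ⟨v, hv1, hv2, hv3⟩ := hproj v0
    rw [← hv3, ← hv2] at hv0
    set q := polar Q (N (N v)) v with hq
    have hqq : q * q = 1 := by revert hv0; generalize q = q; revert q; decide
    have hp : HP Q (N (N v)) (q • v - Q (q • v) • N (N v)) :=
      HP.of_polar (hQ2 v) (by rw [polar_smul_right, ← hq, smul_eq_mul, hqq])
    set f := q • v - Q (q • v) • N (N v) with hf
    have hNf : f - x.1 f = -(q • N v) := by rw [hxN f, hf]; simp [h3]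
    obtain ⟨u, hu, y, d, hud, hfu, hxy, hy3, hye, hyf, hyu⟩ := split hx hp (by rw [hxN, h3, add_zero]) (-q)
      (by rw [hNf, hxN]; simp only [map_neg, map_smul]; module)
    have heS : ∀ s ∈ S, polar Q (N (N v)) s = 0 := fun s hs => hNS' s (hmem s hs) _
    have hfS : ∀ s ∈ S, polar Q f s = 0 := fun s hs => by rw [hf]; qsimp; rw [hv1 s hs, heS s hs]; ring
    have huS : ∀ s ∈ S, polar Q u s = 0 := fun s hs => by
      rw [hud, hNf]; qsimp; rw [hNS' s (hmem s hs), heS s hs]; ring
    have hQu : Q u = q := by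
      rw [hud, hNf]; qsimp; rw [hQ2, h12, hQ1, ← hq, hqq]; ring
    obtain ⟨k1, k2, k3, k4⟩ := orthL_HP hp (l := u :: S) (orthL_cons.2 ⟨hQu ▸ hv0, huS, hS⟩)
      (by simpa [hu] using heS) (by simpa [hfu] using hfS)
    refine ⟨q, [-N (N v) - f, -N (N v) + f, u], y, k1, by simp [pat, hv0, k2, k3, hQu], ?_, hy3, ?_⟩
    · simp only [blk, if_neg hv0, List.getD_cons_zero, List.getD_cons_succ, k4, mul_one]
      rw [sg_eq hp.he hu]; exact hxy
    · simp only [List.cons_append, List.nil_append, List.mem_cons, forall_eq_or_imp, map_sub, map_add, map_neg,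
        hye, hyf, hyu, true_and]
      exact fun s hs => hfixy hxy s (hfix s hs) (by rw [polar_comm, heS s hs]) (by rw [polar_comm, huS s hs])
  · push Not at hA
    have hsym : ∀ a b, polar Q (N (N a)) b = - polar Q (N a) (N b) := fun a b => by
      have := hB (N a) b
      rw [polar_comm Q (N (N a)) (N b), h12] at this
      linear_combination this
    have hN2 : ∀ a, N (N a) = 0 := fun a => hQ _ fun b => by
      have h1 := hA (a + b)
      simp only [map_add, polar_add_left, polar_add_right, hA, hsym a b, hsym b a, polar_comm Q (N b)] at h1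
      rw [hsym]
      linear_combination -h1 - polar Q (N a) (N b) * three_eq
    obtain ⟨w0, hw0⟩ : ∃ w, N w ≠ 0 := by
      by_contra! h
      exact hx1 (OG.ext fun v => by rw [hxN, h, add_zero]; rfl)
    obtain ⟨w, hw1, hw2, -⟩ := hproj w0
    rw [← hw2] at hw0
    have hQN : ∀ a, Q (N a) = 0 := fun a => by rw [hQ1, hA]
    have hNN : ∀ a b, polar Q (N a) (N b) = 0 := fun a b => by simpa [hN2] using hB a (N b)
    obtain ⟨f0, hf0⟩ := hQ.exists_polar_eq hw0 1
    obtain ⟨f1, hf1, -, hf2⟩ := hproj f0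
    have hp : HP Q (N w) (f1 - Q f1 • N w) := HP.of_polar (hQN w) (by rw [hf2, hf0])
    set f := f1 - Q f1 • N w with hf
    have hNf : f - x.1 f = -N f := by rw [hxN f]; abel
    obtain ⟨u, hu, y, d, hud, hfu, hxy, hy3, hye, hyf, hyu⟩ := split hx hp (by rw [hxN, hN2, add_zero]) 0
      (by rw [hNf, hxN]; simp [hN2])
    have heS : ∀ s ∈ S, polar Q (N w) s = 0 := fun s hs => hNS' s (hmem s hs) _
    have hfS : ∀ s ∈ S, polar Q f s = 0 := fun s hs => by rw [hf]; qsimp; rw [hf1 s hs, heS s hs]; ring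
    have huS : ∀ s ∈ S, polar Q u s = 0 := fun s hs => by
      rw [hud, hNf]; qsimp; rw [hNS' s (hmem s hs), heS s hs]; ring
    have hQu : Q u = 0 := by rw [hud, hNf]; qsimp; rw [hQN, hQN, hNN]; ring
    have hew : polar Q (N w) w = 0 := by
      have := hB w w
      rw [hNN, polar_comm Q w] at this
      linear_combination -this + polar Q (N w) w * three_eq
    have huw : polar Q u w = 1 := by
      have := hB f w
      rw [hNN, hp.hfe] at this
      rw [hud, hNf]; qsimp; rw [hew]; linear_combination -this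
    have hyw : y.1 w = w := by
      have h1 : y = (sieg _ u hp.he hu)⁻¹ * x := by rw [hxy]; group
      have h2 : (sieg _ u hp.he hu).1 w = x.1 w := by
        rw [sieg_apply, polar_comm Q w u, huw, polar_comm Q w, hew, hxN]; module
      rw [h1, OG.mul_apply, ← h2, OG.inv_apply_self]
    set w1 := w - polar Q f w • N w with hw1d
    have hp' : HP Q u (w1 - Q w1 • u) := HP.of_polar hQu (by
      rw [hw1d]; qsimp; rw [huw, polar_comm Q u, hu]; ring)
    set f' := w1 - Q w1 • u with hf'
    have hf'S : ∀ s ∈ S, polar Q f' s = 0 := fun s hs => by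
      rw [hf', hw1d]; qsimp; rw [hw1 s hs, heS s hs, huS s hs]; ring
    have hef' : polar Q (N w) f' = 0 := by rw [hf', hw1d]; qsimp; rw [hew, hQN, hu]; ring
    have hff' : polar Q f f' = 0 := by rw [hf', hw1d]; qsimp; rw [hp.hfe, hfu]; ring
    have hyf' : y.1 f' = f' := by rw [hf', hw1d]; simp only [map_sub, map_smul, hyw, hye, hyu]
    obtain ⟨j1, j2, j3, j4⟩ := orthL_HP hp' hS huS hf'S
    obtain ⟨k1, k2, k3, k4⟩ := orthL_HP hp j1
      (by simp only [List.mem_cons, forall_eq_or_imp]; qsimp; simpa [hu, hef'] using heS)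
      (by simp only [List.mem_cons, forall_eq_or_imp]; qsimp; simpa [hfu, hff'] using hfS)
    refine ⟨0, [-N w - f, -N w + f, -u - f', -u + f'], y, k1, by simp [pat, k2, k3, j2, j3], ?_, hy3, ?_⟩
    · simp only [blk, if_true, List.getD_cons_zero, List.getD_cons_succ, k4, j4, mul_one]
      rw [sg_eq hp.he hu]; exact hxy
    · simp only [List.cons_append, List.nil_append, List.mem_cons, forall_eq_or_imp, map_sub, map_add, map_neg,
        hye, hyf, hyu, hyf', true_and]
      exact fun s hs => hfixy hxy s (hfix s hs) (by rw [polar_comm, heS s hs]) (by rw [polar_comm, huS s hs])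

lemma pat_cons (ε : ZMod 3) (t : List (ZMod 3)) : pat (ε :: t) = pat [ε] ++ pat t := by
  simp only [pat]; split_ifs <;> rfl

lemma blk_cons (ε : ZMod 3) (t : List (ZMod 3)) {b : List V} (hb : b.length = (pat [ε]).length) (l : List V) :
    blk Q (ε :: t) (b ++ l) = blk Q [ε] b * blk Q t l := by
  simp only [pat, blk] at hb ⊢
  split_ifs at hb ⊢
  · obtain ⟨a1, a2, a3, a4, rfl⟩ : ∃ a1 a2 a3 a4, b = [a1, a2, a3, a4] := by
      match b, hb with | [a1, a2, a3, a4], _ => exact ⟨_, _, _, _, rfl⟩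
    simp
  · obtain ⟨a1, a2, a3, rfl⟩ : ∃ a1 a2 a3, b = [a1, a2, a3] := by
      match b, hb with | [a1, a2, a3], _ => exact ⟨_, _, _, rfl⟩
    simp

/-- an element with trivial cube is a product of Siegel transformations on orthogonal blocks -/
theorem exists_blk [FiniteDimensional (ZMod 3) V] (hQ : Nondeg Q) {x : OG Q} (hx : x ^ 3 = 1) :
    ∃ t l, OrthL Q l ∧ l.map Q = pat t ∧ x = blk Q t l := by
  suffices H : ∀ n (S : List V) (x : OG Q), finrank (ZMod 3) V ≤ S.length + n → x ^ 3 = 1 → OrthL Q S →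
      (∀ s ∈ S, x.1 s = s) → ∃ t l, OrthL Q (l ++ S) ∧ l.map Q = pat t ∧ x = blk Q t l by
    simpa using H (finrank (ZMod 3) V) [] x (by simp) hx orthL_nil (by simp)
  intro n
  induction n with
  | zero =>
    intro S x hn hx hS hfix
    by_cases hx1 : x = 1
    · exact ⟨[], [], hS, rfl, hx1⟩
    obtain ⟨ε, b, y, h1, h2, -⟩ := step hQ hx hx1 hS hfix
    have h3 := h1.length_le two_ne
    have h4 := congrArg List.length h2
    simp only [pat, List.length_map, List.length_append] at h3 h4
    split_ifs at h4 <;> simp at h4 <;> omega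
  | succ n ih =>
    intro S x hn hx hS hfix
    by_cases hx1 : x = 1
    · exact ⟨[], [], hS, rfl, hx1⟩
    obtain ⟨ε, b, y, h1, h2, h3, h4, h5⟩ := step hQ hx hx1 hS hfix
    have h6 := congrArg List.length h2
    rw [List.length_map] at h6
    obtain ⟨t, l, k1, k2, k3⟩ := ih (b ++ S) y (by
      simp only [pat, List.length_append] at h6 ⊢
      split_ifs at h6 <;> simp at h6 <;> omega) h4 h1 h5
    refine ⟨ε :: t, b ++ l, k1.perm ?_, by rw [List.map_append, h2, k2, ← pat_cons], by rw [blk_cons _ _ h6, ← k3, h3]⟩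
    rw [← List.append_assoc]
    exact List.perm_append_comm.append_right _

end three

theorem realizeEqns_O3Witt : True := by
  have := @CA.O3.pat.eq_1
  have := @CA.O3.pat.eq_2
  have := @CA.O3.pat.eq_def
  have := @CA.O3.pat.congr_simp
  have := @CA.O3.sg.eq_1.{0,0}
  have := @CA.O3.sg.eq_def.{0,0}
  have := @CA.O3.sg.congr_simp.{0,0}
  have := @CA.O3.OrthL.eq_1.{0,0}
  have := @CA.O3.OrthL.eq_def.{0,0}
  have := @CA.O3.OrthL.congr_simp.{0,0}
  have := @CA.O3.blk.eq_1.{0}
  have := @CA.O3.blk.eq_2.{0}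
  have := @CA.O3.blk.eq_def.{0}
  have := @CA.O3.blk.congr_simp.{0}
  trivial

end CA.O3
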