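/-
The eight-dimensional representation of the Steinberg group of type D4 over the field with three elements and an
evaluator for words in reflections, Siegel transformations and root elements.
-/
import Cfsg.Agent.O3.Witt
import Cfsg.Agent.Chev.OrthRep
import Cfsg.Agent.Chev.AutInst

set_option autoImplicit false

namespace CA.O3
open Cfsg Cfsg.Lie Cfsg.Lie.ChevalleyDatum Matrix Cfsg.Agent.Orth QuadraticMap CA.Chev

section generic
variable {ι : Type} [DecidableEq ι] [Fintype ι] {F : Type*} [Field F] {Q : QuadraticForm F (ι → F)} {p : ι → ι}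
  {m q : ι → ℤ}

theorem exists_psi_gen {D : ChevalleyDatum} [RootGood D] [LieGood D] [StGood D]
    (hp : ∀ a v, polar Q (Pi.single a 1) v = m a * v (p a)) (hq : ∀ a, Q (Pi.single a 1) = q a)
    {κ κ' : Rt D → ι → ℤ} {s s' : Rt D → ι → ι} (ρ : D.SteinbergGroup F →* GL ι F)
    (hρ : ∀ r t v c, ((ρ (xS r t)).1 *ᵥ v) c = v c + t * κ r c * v (s r c) + t ^ 2 * κ' r c * v (s' r c))
    (h1 : ∀ r, ∃ u w, SiegOK p m q (κ r) (s r) (κ' r) (s' r) u w) {i j : ι}
    (h : HP Q (Pi.single i 1) (Pi.single j 1))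
    (h2 : ∀ u w, u = i ∨ u = j → m u = 1 ∧ (w = u ∨ w = p u ∨ ∃ r, SiegOK p m q (κ r) (s r) (κ' r) (s' r) u w))
    (hW : WN Q) (hv : ∃ v, polar Q (Pi.single i 1) v = 0 ∧ polar Q (Pi.single j 1) v = 0 ∧ Q v ≠ 0) :
    ∃ ψ : D.SteinbergGroup F →* OG Q, ψ.range = EE Q ∧
      ∀ r t v c, (ψ (xS r t)).1 v c = v c + t * κ r c * v (s r c) + t ^ 2 * κ' r c * v (s' r c) := by
  have hQ₀ : ∀ x, Q x = (⇑Q) x := fun _ => rfl
  have k1 : ∀ g, ρ g ∈ isometryGroup F Q := fun g => by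
    refine (stSt D F).XS_le (P := fun _ => True) (H := (isometryGroup F Q).comap ρ) (fun r _ t v _ => ?_)
      (stSt_top (D := D) (K := F) ▸ Subgroup.mem_top g)
    obtain ⟨u, w, huw⟩ := h1 r
    obtain ⟨hu, hw, k⟩ := huw.exists_sieg hp hq t
    change Q ((ρ (xS r t)).1 *ᵥ v) = Q v
    rw [← OG.map_Q (sieg _ _ hu hw) v]
    congr 1
    funext c
    rw [hρ, k]
  let ψ : D.SteinbergGroup F →* OG Q :=
    (isometryEquiv (LinearEquiv.refl F _) hQ₀).toMonoidHom.comp (ρ.codRestrict _ k1)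
  have k0 : ∀ r t v c, (ψ (xS r t)).1 v c = v c + t * κ r c * v (s r c) + t ^ 2 * κ' r c * v (s' r c) :=
    fun r t v c => by
      rw [← hρ]
      exact congrFun (isometryEquiv_apply (LinearEquiv.refl F _) hQ₀ _ v) c
  have k2 : ∀ {r u w}, SiegOK p m q (κ r) (s r) (κ' r) (s' r) u w → ∀ t,
      ∃ hu hw, ψ (xS r t) = sieg (Q := Q) (Pi.single u 1) ((-κ r w * t) • Pi.single w 1) hu hw := by
    intro r u w huw t
    obtain ⟨hu, hw, k⟩ := huw.exists_sieg hp hq t
    refine ⟨hu, hw, OG.ext fun v => funext fun c => ?_⟩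
    rw [k, k0]
  have k3 : ∀ u (hu : Q (Pi.single u 1) = 0), u = i ∨ u = j → TT (Pi.single u 1) hu ≤ ψ.range := by
    rintro u hu hij _ ⟨v, hv, rfl⟩
    let A : AddSubmonoid (ι → F) :=
      { carrier := {v | ∃ hv, sieg _ v hu hv ∈ ψ.range}
        zero_mem' := ⟨_, sieg_zero hu ▸ one_mem _⟩
        add_mem' := fun ⟨ha, ha'⟩ ⟨hb, hb'⟩ => ⟨_, sieg_mul hu ha hb ▸ mul_mem ha' hb'⟩ }
    suffices H : ∑ w, v w • (Pi.single w 1 : ι → F) ∈ A by
      obtain ⟨_, H⟩ := H
      rwa [sieg_congr _ _ rfl (pi_eq_sum_univ' v).symm] at H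
    refine sum_mem fun w _ => ?_
    by_cases hw : w = u
    · subst hw
      refine ⟨by rw [polar_smul_right, polar_self', hu, mul_zero, smul_zero], ?_⟩
      rw [sieg_congr _ _ rfl (zero_add _).symm, sieg_add_smul _ hu (by simp), sieg_zero]; exact one_mem _
    by_cases hw' : w = p u
    · rw [hp, (h2 u u hij).1, Int.cast_one, one_mul, ← hw'] at hv
      rw [hv, zero_smul]; exact zero_mem _
    obtain ⟨r, hr⟩ := ((h2 u w hij).2.resolve_left hw).resolve_left hw'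
    obtain ⟨_, hw, k⟩ := k2 hr (-κ r w * v w)
    have h5 : (κ r w : F) * κ r w = 1 := by exact_mod_cast congrArg (Int.cast : ℤ → F) hr.2.2.2.2.1
    have h6 : -(κ r w : F) * (-κ r w * v w) = v w := by linear_combination v w * h5
    simp only [h6] at k hw
    exact ⟨hw, _, k⟩
  refine ⟨ψ, ?_, k0⟩
  refine le_antisymm ?_ (hW.EE_le h hv (k3 i _ (Or.inl rfl)) (k3 j _ (Or.inr rfl)))
  rw [MonoidHom.range_eq_map, ← stSt_top, Subgroup.map_le_iff_le_comap]
  refine (stSt D F).XS_le fun r _ t => ?_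
  obtain ⟨u, w, huw⟩ := h1 r
  obtain ⟨hu, hw, k⟩ := k2 huw t
  exact (k ▸ sieg_mem_EE hu hw : ψ (xS r t) ∈ EE Q)

end generic

/-- the eight-dimensional space -/
abbrev V8 : Type := Fin 4 ⊕ Fin 4 → ZMod 3

/-- the hyperbolic form -/
noncomputable def Q8 : QuadraticForm (ZMod 3) V8 := (hsum 4 0).comp (plusEquiv (ZMod 3) 4).toLinearMap

lemma Q8_apply (x : V8) : Q8 x = quadFormPlus 4 (ZMod 3) x := hsum_plusEquiv 4 x

lemma Q8_eq (x : V8) : Q8 x = x (.inl 0) * x (.inr 0) + x (.inl 1) * x (.inr 1) + x (.inl 2) * x (.inr 2) +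
    x (.inl 3) * x (.inr 3) := by rw [Q8_apply, quadFormPlus, Fin.sum_univ_four]

lemma polar_Q8 (x y : V8) : polar Q8 x y = x (.inl 0) * y (.inr 0) + x (.inl 1) * y (.inr 1) +
    x (.inl 2) * y (.inr 2) + x (.inl 3) * y (.inr 3) + (x (.inr 0) * y (.inl 0) + x (.inr 1) * y (.inl 1) +
    x (.inr 2) * y (.inl 2) + x (.inr 3) * y (.inl 3)) := by
  simp only [polar, Q8_eq, Pi.add_apply]; ring

lemma polar_single (a : Fin 4 ⊕ Fin 4) (v : V8) : polar Q8 (Pi.single a 1) v = (1 : ℤ) * v a.swap := by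
  rcases a with a | a <;>
    simp [polar, Q8_apply, quadFormPlus, add_mul, mul_add, Finset.sum_add_distrib, Pi.single_apply]

lemma Q8_single (a : Fin 4 ⊕ Fin 4) : Q8 (Pi.single a 1) = (0 : ℤ) := by
  rcases a with a | a <;> simp [Q8_apply, quadFormPlus]

lemma nondeg8 : Nondeg Q8 := (nondeg_zero.hsum 4).congr (plusEquiv (ZMod 3) 4) fun _ => rfl

lemma hp8 (i : Fin 4) : HP Q8 (Pi.single (.inl i) 1) (Pi.single (.inr i) 1) :=
  ⟨by simp [Q8_single], by simp [Q8_single], by simp [polar_single]⟩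

lemma comm8 : commutator (OG Q8) = EE Q8 :=
  commutator_eq_EE nondeg8 (by simp) (hp8 0) (hp8 1) (by simp [polar_single]) (by simp [polar_single])

/-- the Steinberg group -/
abbrev St : Type := chevD4.SteinbergGroup (ZMod 3)

theorem exists_psi : ∃ ψ : St →* OG Q8, ψ.range = EE Q8 ∧
    ∀ r t v c, (ψ (xS r t)).1 v c = v c + t * kapP r c * v (srcP r c) := by
  obtain ⟨ρ, hρ⟩ := exists_repD4 (ZMod 3)
  obtain ⟨ψ, h1, h2⟩ := exists_psi_gen (p := Sum.swap) (m := fun _ => 1) (q := fun _ => 0) (κ' := fun _ _ => 0)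
    (s' := fun _ c => c) polar_single Q8_single ρ hρ (by decide +kernel) (hp8 0) (by decide +kernel)
    (fun x _ => nondeg8 x) ((hp8 0).exists_orth nondeg8 (by simp))
  exact ⟨ψ, h1, fun r t v c => by simpa using h2 r t v c⟩

/-- the representation -/
noncomputable def psi : St →* OG Q8 := exists_psi.choose

lemma psi_range : psi.range = commutator (OG Q8) := exists_psi.choose_spec.1.trans comm8.symm

lemma psi_xS (r : Rt chevD4) (t : ZMod 3) (v : V8) (c : Fin 4 ⊕ Fin 4) :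
    (psi (xS r t)).1 v c = v c + t * kapP r c * v (srcP r c) := exists_psi.choose_spec.2 r t v c

/-! ### packed vectors -/

/-- a digit -/
def dg (x i : ℕ) : ℕ := Nat.land (Nat.shiftRight x (Nat.mul 2 i)) 3

/-- packing -/
def mk8 (f : ℕ → ℕ) : ℕ := Nat.add (Nat.mod (f 0) 3) (Nat.mul 4 (Nat.add (Nat.mod (f 1) 3) (Nat.mul 4
  (Nat.add (Nat.mod (f 2) 3) (Nat.mul 4 (Nat.add (Nat.mod (f 3) 3) (Nat.mul 4 (Nat.add (Nat.mod (f 4) 3)
  (Nat.mul 4 (Nat.add (Nat.mod (f 5) 3) (Nat.mul 4 (Nat.add (Nat.mod (f 6) 3) (Nat.mul 4 (Nat.mod (f 7) 3))))))))))))))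

lemma dg_eq (x i : ℕ) : dg x i = x / 4 ^ i % 4 := by
  change (x >>> (2 * i)) &&& (2 ^ 2 - 1) = _
  rw [Nat.and_two_pow_sub_one_eq_mod, Nat.shiftRight_eq_div_pow, pow_mul]; rfl

lemma dg_mk8 (f : ℕ → ℕ) {i : ℕ} (hi : i < 8) : dg (mk8 f) i = f i % 3 := by
  have : mk8 f = f 0 % 3 + 4 * (f 1 % 3 + 4 * (f 2 % 3 + 4 * (f 3 % 3 + 4 * (f 4 % 3 + 4 * (f 5 % 3 +
    4 * (f 6 % 3 + 4 * (f 7 % 3))))))) := rfl
  rw [dg_eq, this]
  interval_cases i <;> omega

/-- the vector of a code -/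
def toV (x : ℕ) : V8 := fun c => (dg x (encP c) : ZMod 3)

lemma encP_lt (c : Fin 4 ⊕ Fin 4) : encP c < 8 := by
  rcases c with c | c <;> simp only [encP, Sum.elim_inl, Sum.elim_inr] <;> omega

lemma toV_mk8 (f : ℕ → ℕ) (c : Fin 4 ⊕ Fin 4) : toV (mk8 f) c = (f (encP c) : ZMod 3) := by
  rw [toV, dg_mk8 f (encP_lt c), ZMod.natCast_mod]

/-- the polar form -/
def BN (x y : ℕ) : ℕ := (dg x 0 * dg y 4 + dg x 1 * dg y 5 + dg x 2 * dg y 6 + dg x 3 * dg y 7 +
  (dg x 4 * dg y 0 + dg x 5 * dg y 1 + dg x 6 * dg y 2 + dg x 7 * dg y 3)) % 3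

/-- the quadratic form -/
def QN (x : ℕ) : ℕ := (dg x 0 * dg x 4 + dg x 1 * dg x 5 + dg x 2 * dg x 6 + dg x 3 * dg x 7) % 3

lemma polar_toV (x y : ℕ) : polar Q8 (toV x) (toV y) = BN x y := by
  rw [polar_Q8, BN, ZMod.natCast_mod]; push_cast; rfl

lemma Q_toV (x : ℕ) : Q8 (toV x) = QN x := by
  rw [Q8_eq, QN, ZMod.natCast_mod]; push_cast; rfl

lemma cast_mod_eq_zero {n : ℕ} : ((n % 3 : ℕ) : ZMod 3) = 0 ↔ n % 3 = 0 := by
  rw [ZMod.natCast_mod, ZMod.natCast_eq_zero_iff]; omega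

lemma BN_eq_zero {x y : ℕ} : (BN x y : ZMod 3) = 0 ↔ BN x y = 0 := cast_mod_eq_zero

lemma QN_eq_zero {x : ℕ} : (QN x : ZMod 3) = 0 ↔ QN x = 0 := cast_mod_eq_zero

/-- the sum -/
def addN (x y : ℕ) : ℕ := mk8 fun i => dg x i + dg y i

lemma toV_addN (x y : ℕ) : toV (addN x y) = toV x + toV y := by
  funext c; rw [addN, toV_mk8]; push_cast; rfl

lemma toV_zero : toV 0 = 0 := by funext c; simp [toV, dg_eq]

/-- letters -/
inductive Op
  | sie (u v : ℕ)
  | rfl (w : ℕ)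
  | rt (r t : ℕ)

/-- the action of a letter on codes -/
def Op.ev : Op → ℕ → ℕ
  | .sie u v, x => cond (Nat.beq (QN u) 0 && Nat.beq (BN u v) 0)
      (mk8 fun i => dg x i + BN x v * dg u i + 2 * BN x u * dg v i + 2 * QN v * BN x u * dg u i) x
  | .rfl w, x => mk8 fun i => dg x i + 2 * BN x w * QN w * dg w i
  | .rt r t, x => if h : r < 24 then mk8 fun i => dg x i + t * (kapP ⟨r, h⟩ (decP i) + 3).toNat *
      dg x (encP (srcP ⟨r, h⟩ (decP i))) else x

/-- the isometry of a letter -/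
noncomputable def Op.og : Op → OG Q8
  | .sie u v => sg Q8 (toV u) (toV v)
  | .rfl w => refl Q8 (toV w)
  | .rt r t => psi ((stSt chevD4 (ZMod 3)).xN r t)

lemma decP_encP (c : Fin 4 ⊕ Fin 4) : decP (encP c) = c := by revert c; decide

lemma kapP_ge (r : Rt chevD4) (c : Fin 4 ⊕ Fin 4) : 0 ≤ kapP r c + 3 := by revert r c; decide +kernel

lemma Op.og_toV (o : Op) (x : ℕ) : o.og.1 (toV x) = toV (o.ev x) := by
  cases o with
  | sie u v =>
    simp only [Op.og, Op.ev]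
    by_cases h : QN u = 0 ∧ BN u v = 0
    · have h1 : Q8 (toV u) = 0 := by rw [Q_toV, h.1]; rfl
      have h2 : polar Q8 (toV u) (toV v) = 0 := by rw [polar_toV, h.2]; rfl
      rw [sg_eq h1 h2, sieg_apply, h.1, h.2]
      funext c
      simp only [Nat.beq_refl, Bool.and_self, cond_true, toV_mk8, polar_toV, Q_toV, Pi.add_apply, Pi.sub_apply,
        Pi.smul_apply, smul_eq_mul]
      push_cast
      simp only [toV]
      linear_combination (-(BN x u : ZMod 3) * dg v (encP c) - QN v * BN x u * dg u (encP c)) * three_eq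
    · have h1 : (Nat.beq (QN u) 0 && Nat.beq (BN u v) 0) = false := by
        rw [Bool.eq_false_iff]; simpa [Nat.beq_eq] using h
      rw [h1, cond_false, sg, dif_neg (by rwa [Q_toV, polar_toV, QN_eq_zero, BN_eq_zero])]; rfl
  | rfl w =>
    simp only [Op.og, Op.ev]
    funext c
    have h1 : ∀ a b : ZMod 3, a / b = a * b := by decide +kernel
    simp only [refl_apply, toV_mk8, polar_toV, Q_toV, Pi.sub_apply, Pi.smul_apply, smul_eq_mul, h1]
    push_cast
    simp only [toV]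
    linear_combination (-(BN x w : ZMod 3) * QN w * dg w (encP c)) * three_eq
  | rt r t =>
    simp only [Op.og, Op.ev]
    split_ifs with h
    · funext c
      have h1 := (stSt chevD4 (ZMod 3)).xN_val ⟨r, h⟩ t
      have h2 : (((kapP ⟨r, h⟩ c + 3).toNat : ℕ) : ZMod 3) = kapP ⟨r, h⟩ c := by
        rw [← Int.cast_natCast, Int.toNat_of_nonneg (kapP_ge _ _)]; push_cast; rw [three_eq, add_zero]
      rw [h1, stSt_x, psi_xS, toV_mk8, decP_encP]
      push_cast
      rw [h2]; rfl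
    · rw [StSys.xN, dif_neg (show ¬ r < chevD4.nroots from h), map_one]; rfl

/-- the isometry of a word -/
noncomputable def ogL (l : List Op) : OG Q8 := (l.map Op.og).prod

/-- the action of a word on codes -/
def run (l : List Op) (x : ℕ) : ℕ := l.foldr Op.ev x

lemma ogL_nil : ogL [] = 1 := rfl

lemma ogL_cons (o : Op) (l : List Op) : ogL (o :: l) = o.og * ogL l := by simp [ogL]

lemma ogL_append (l l' : List Op) : ogL (l ++ l') = ogL l * ogL l' := by simp [ogL]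

lemma ogL_toV (l : List Op) (x : ℕ) : (ogL l).1 (toV x) = toV (run l x) := by
  induction l with
  | nil => rfl
  | cons o l ih => rw [ogL_cons, OG.mul_apply, ih, Op.og_toV]; rfl

/-- the codes of the basis vectors -/
def bas : List ℕ := [1, 4, 16, 64, 256, 1024, 4096, 16384]

lemma exists_bas (c : Fin 4 ⊕ Fin 4) : ∃ b ∈ bas, toV b = Pi.single c 1 := by revert c; decide

lemma linear_ext {M : Type*} [AddCommGroup M] [Module (ZMod 3) M] {f g : V8 →ₗ[ZMod 3] M}
    (h : ∀ b ∈ bas, f (toV b) = g (toV b)) : f = g := by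
  refine LinearMap.pi_ext' fun c => LinearMap.ext_ring ?_
  obtain ⟨b, hb, e⟩ := exists_bas c
  simpa [e] using h b hb

/-- equality test for words -/
def eqW (l l' : List Op) : Bool := bas.all fun b => Nat.beq (run l b) (run l' b)

lemma ogL_eq_of_eqW {l l' : List Op} (h : eqW l l' = true) : ogL l = ogL l' := by
  have := linear_ext (f := (ogL l).1.toLinearMap) (g := (ogL l').1.toLinearMap) fun b hb => by
    have := List.all_eq_true.1 h b hb
    simp only [LinearEquiv.coe_coe, ogL_toV, Nat.eq_of_beq_eq_true this]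
  exact OG.ext fun v => LinearMap.congr_fun this v

theorem realizeEqns_O3Eval : True := by
  have := @CA.O3.bas.eq_1
  have := @CA.O3.bas.eq_def
  have := @CA.O3.bas.congr_simp
  have := @CA.O3.QN.eq_1
  have := @CA.O3.QN.eq_def
  have := @CA.O3.QN.congr_simp
  have := @CA.O3.dg.eq_1
  have := @CA.O3.dg.eq_def
  have := @CA.O3.dg.congr_simp
  have := @CA.O3.ogL.eq_1
  have := @CA.O3.ogL.eq_def
  have := @CA.O3.ogL.congr_simp
  have := @CA.O3.addN.eq_1
  have := @CA.O3.addN.eq_def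
  have := @CA.O3.addN.congr_simp
  have := @CA.O3.St.eq_1
  have := @CA.O3.St.eq_def
  have := @CA.O3.St.congr_simp
  have := @CA.O3.Op.ev.eq_1
  have := @CA.O3.Op.ev.eq_2
  have := @CA.O3.Op.ev.eq_3
  have := @CA.O3.Op.ev.eq_def
  have := @CA.O3.Op.ev.congr_simp
  have := @CA.O3.Q8.eq_1
  have := @CA.O3.Q8.eq_def
  have := @CA.O3.Q8.congr_simp
  have := @CA.O3.V8.eq_1
  have := @CA.O3.V8.eq_def
  have := @CA.O3.V8.congr_simp
  have := @CA.O3.Op.og.eq_1
  have := @CA.O3.Op.og.eq_2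
  have := @CA.O3.Op.og.eq_3
  have := @CA.O3.Op.og.eq_def
  have := @CA.O3.Op.og.congr_simp
  have := @CA.O3.run.eq_1
  have := @CA.O3.run.eq_def
  have := @CA.O3.run.congr_simp
  have := @CA.O3.mk8.eq_1
  have := @CA.O3.mk8.eq_def
  have := @CA.O3.mk8.congr_simp
  have := @CA.O3.BN.eq_1
  have := @CA.O3.BN.eq_def
  have := @CA.O3.BN.congr_simp
  have := @CA.O3.toV.eq_1
  have := @CA.O3.toV.eq_def
  have := @CA.O3.toV.congr_simp
  have := @CA.O3.psi.eq_1
  have := @CA.O3.psi.eq_def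
  have := @CA.O3.psi.congr_simp
  have := @CA.O3.eqW.eq_1
  have := @CA.O3.eqW.eq_def
  have := @CA.O3.eqW.congr_simp
  trivial

end CA.O3
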