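/-
Conjugacy certificates for elements of order three in orthogonal groups over the field with three elements.
-/
import Cfsg.Agent.O3.Eval

set_option autoImplicit false

namespace CA.O3
open Cfsg Cfsg.Agent.Orth QuadraticMap Module
open CA.Chev (encP decP)

section generic
variable {V : Type*} [AddCommGroup V] [Module (ZMod 3) V] {Q : QuadraticForm (ZMod 3) V}

/-- conjugacy under the commutator subgroup -/
def CO (x y : OG Q) : Prop := ∃ g ∈ commutator (OG Q), g * x * g⁻¹ = y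

lemma CO.refl (x : OG Q) : CO x x := ⟨1, one_mem _, by simp⟩

lemma CO.symm {x y : OG Q} (h : CO x y) : CO y x := by
  obtain ⟨g, hg, rfl⟩ := h
  exact ⟨g⁻¹, inv_mem hg, by group⟩

lemma CO.trans {x y z : OG Q} (h : CO x y) (h' : CO y z) : CO x z := by
  obtain ⟨g, hg, rfl⟩ := h
  obtain ⟨k, hk, rfl⟩ := h'
  exact ⟨k * g, mul_mem hk hg, by group⟩

lemma CO.inv {x y : OG Q} (h : CO x y) : CO x⁻¹ y⁻¹ := by
  obtain ⟨g, hg, rfl⟩ := h
  exact ⟨g, hg, by group⟩

lemma ab_refl_eq {u v : V} (h : Q u = Q v) : Abelianization.of (refl Q u) = Abelianization.of (refl Q v) := by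
  by_cases hu : Q u = 0
  · have h1 : ∀ w, Q w = 0 → refl Q w = 1 := fun w hw => OG.ext fun x => by simp [refl_apply, hw, OG.one_apply]
    rw [h1 u hu, h1 v (h ▸ hu)]
  · obtain ⟨g, hg, -⟩ := exists_map_nonsing two_ne hu h
    rw [← hg, ← refl_conj, map_mul, map_mul, map_inv, mul_comm (Abelianization.of g), mul_inv_cancel_right]

lemma ab_refl_sq (u : V) : Abelianization.of (refl Q u) * Abelianization.of (refl Q u) = 1 := by
  rw [← map_mul, refl_mul_self, map_one]

lemma mem_comm_iff {G : Type*} [Group G] {g : G} : g ∈ commutator G ↔ Abelianization.of g = 1 :=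
  (QuotientGroup.eq_one_iff g).symm

/-- a product of reflections -/
def rp (Q : QuadraticForm (ZMod 3) V) (l : List V) : OG Q := (l.map (refl Q)).prod

lemma exists_coset [FiniteDimensional (ZMod 3) V] (hQ : Nondeg Q) (hE : commutator (OG Q) = EE Q) {a b : V}
    (ha : Q a = 1) (hb : Q b = -1) (g : OG Q) :
    ∃ c ∈ [[], [a], [b], [a, b]], g * (rp Q c)⁻¹ ∈ commutator (OG Q) := by
  simp only [mem_comm_iff, map_mul, map_inv, mul_inv_eq_one, List.mem_cons, List.not_mem_nil, or_false,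
    exists_eq_or_imp, exists_eq_left, rp, List.map_nil, List.prod_nil, map_one, List.map_cons, List.prod_cons,
    mul_one]
  induction g using OG.induction hQ with
  | h1 => exact Or.inl (map_one _)
  | hr w g hw ih =>
    have h1 := ab_refl_sq (Q := Q) a
    have h2 := ab_refl_sq (Q := Q) b
    have h3 : Q w = Q a ∨ Q w = Q b := by rw [ha, hb]; revert hw; generalize Q w = q; revert q; decide
    rw [map_mul]
    rcases h3 with h3 | h3 <;> rw [ab_refl_eq h3] <;> rcases ih with h | h | h | h <;> rw [h]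
    · simp
    · simp [h1]
    · simp
    · simp [← mul_assoc, h1]
    · simp
    · simp [mul_comm]
    · simp [h2]
    · rw [mul_left_comm, h2]; simp
  | hs u v hu hv g ih =>
    rwa [map_mul, mem_comm_iff.1 (hE ▸ sieg_mem_EE hu hv), one_mul]

lemma blk_mem_EE (t : List (ZMod 3)) (l : List V) : blk Q t l ∈ EE Q := by
  induction t generalizing l with
  | nil => exact one_mem _
  | cons ε t ih => simp only [blk]; split_ifs <;> exact mul_mem (sg_mem_EE _ _) (ih _)

/-- the square of `x - 1` -/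
def NN (x : OG Q) (v : V) : V := x.1 (x.1 v) + x.1 v + v

/-- an invariant of conjugacy -/
def typ (x : OG Q) : Set (ZMod 3 × Bool) := {p | ∃ v, polar Q (NN x v) v = p.1 ∧ (p.2 = true ↔ NN x v = 0)}

lemma typ_conj (g x : OG Q) : typ (g * x * g⁻¹) = typ x := by
  have h1 : ∀ v, NN (g * x * g⁻¹) (g.1 v) = g.1 (NN x v) := fun v => by
    simp only [NN, OG.mul_apply, OG.inv_apply_self, map_add]
  ext p
  constructor
  · rintro ⟨v, h2, h3⟩
    obtain ⟨v, rfl⟩ := g.1.surjective v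
    rw [h1] at h2 h3
    exact ⟨v, by rwa [OG.map_polar] at h2, by simpa using h3⟩
  · rintro ⟨v, h2, h3⟩
    exact ⟨g.1 v, by rwa [h1, OG.map_polar], by simpa [h1] using h3⟩

lemma typ_inv {x : OG Q} (hx : x ^ 3 = 1) : typ x⁻¹ = typ x := by
  have h1 : x⁻¹ = x * x := by rw [inv_eq_iff_mul_eq_one, ← hx, pow_succ', pow_two]
  have h2 : ∀ v, x.1 (x.1 (x.1 v)) = v := fun v => by
    have := congrArg (fun g : OG Q => g.1 v) hx
    simpa only [pow_succ, pow_zero, one_mul, OG.mul_apply, OG.one_apply] using this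
  have h3 : NN x⁻¹ = NN x := by
    funext v
    simp only [NN, h1, OG.mul_apply, h2]; abel
  simp only [typ, h3]

/-- the value of the invariant -/
def tf (ε₁ ε₂ : ZMod 3) (p : ZMod 3 × Bool) : Prop :=
  ∃ b₁ b₂ : ZMod 3, ε₁ * b₁ * b₁ + ε₂ * b₂ * b₂ = p.1 ∧ (p.2 = true ↔ ε₁ * b₁ = 0 ∧ ε₂ * b₂ = 0)

instance (ε₁ ε₂ : ZMod 3) (p : ZMod 3 × Bool) : Decidable (tf ε₁ ε₂ p) := by unfold tf; infer_instance

lemma mem_typ_iff {x : OG Q} {ε₁ ε₂ : ZMod 3} {a₁ a₂ d₁ d₂ : V}
    (h : ∀ v, NN x v = (ε₁ * polar Q a₁ v) • a₁ + (ε₂ * polar Q a₂ v) • a₂) (h11 : polar Q a₁ d₁ = 1)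
    (h21 : polar Q a₂ d₁ = 0) (h12 : polar Q a₁ d₂ = 0) (h22 : polar Q a₂ d₂ = 1) (p : ZMod 3 × Bool) :
    p ∈ typ x ↔ tf ε₁ ε₂ p := by
  have k : ∀ c₁ c₂ : ZMod 3, c₁ • a₁ + c₂ • a₂ = 0 ↔ c₁ = 0 ∧ c₂ = 0 := fun c₁ c₂ => by
    refine ⟨fun h0 => ⟨?_, ?_⟩, fun h0 => by simp [h0.1, h0.2]⟩
    · simpa [h11, h21] using congrArg (polar Q · d₁) h0
    · simpa [h12, h22] using congrArg (polar Q · d₂) h0
  constructor
  · rintro ⟨v, h1, h2⟩
    refine ⟨polar Q a₁ v, polar Q a₂ v, ?_, by rwa [h, k] at h2⟩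
    rw [← h1, h]; qsimp
  · rintro ⟨b₁, b₂, h1, h2⟩
    have e1 : polar Q a₁ (b₁ • d₁ + b₂ • d₂) = b₁ := by qsimp; rw [h11, h12]; ring
    have e2 : polar Q a₂ (b₁ • d₁ + b₂ • d₂) = b₂ := by qsimp; rw [h21, h22]; ring
    refine ⟨b₁ • d₁ + b₂ • d₂, ?_, by rwa [h, k, e1, e2]⟩
    rw [← h1, h, e1, e2, polar_add_left, polar_smul_left, polar_smul_left, e1, e2]; rfl

/-- an embedding into the eight-dimensional space -/
structure Emb (Q : QuadraticForm (ZMod 3) V) where
  j : V →ₗ[ZMod 3] V8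
  ι : OG Q →* OG Q8
  inj : Function.Injective ι
  jQ : ∀ v, Q8 (j v) = Q v
  ι_refl : ∀ w, ι (refl Q w) = refl Q8 (j w)
  ι_sg : ∀ u v, ι (sg Q u v) = sg Q8 (j u) (j v)
  ok : ℕ → Bool
  tv : ℕ → V
  j_tv : ∀ w, ok w = true → j (tv w) = toV w

/-- a word of reflections -/
def rW (l : List ℕ) : List Op := l.map Op.rfl

/-- flattening of pairs -/
def prW (l : List (ℕ × ℕ)) : List ℕ := l.flatMap fun p => [p.1, p.2]

/-- the pairs have equal norms -/
def prOK (l : List (ℕ × ℕ)) : Bool := l.all fun p => Nat.beq (QN p.1) (QN p.2)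

/-- the word of a block pattern -/
def blkW : List ℕ → List ℕ → List Op
  | [], _ => []
  | ε :: t, l => if ε % 3 = 0 then
      Op.sie (addN (l.getD 0 0) (l.getD 1 0)) (addN (l.getD 2 0) (l.getD 3 0)) :: blkW t (l.drop 4)
      else Op.sie (addN (l.getD 0 0) (l.getD 1 0)) (l.getD 2 0) :: blkW t (l.drop 3)

/-- pattern cast -/
def ct (t : List ℕ) : List (ZMod 3) := t.map Nat.cast

lemma ogL_blkW (t l : List ℕ) : ogL (blkW t l) = blk Q8 (ct t) (l.map toV) := by
  have h1 : ∀ (l : List ℕ) i, (l.map toV).getD i 0 = toV (l.getD i 0) := fun l i => by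
    rw [← List.getD_map (f := toV), toV_zero]
  induction t generalizing l with
  | nil => rfl
  | cons ε t ih =>
    have h2 : (ε : ZMod 3) = 0 ↔ ε % 3 = 0 := by rw [ZMod.natCast_eq_zero_iff]; omega
    simp only [blkW, ct, List.map_cons, blk, h2]
    split_ifs <;> rw [ogL_cons, ih, List.map_drop] <;> simp only [h1, Op.og, toV_addN, ct]

/-- orthogonality test -/
def orthB : List ℕ → Bool
  | [] => true
  | a :: l => !Nat.beq (QN a) 0 && l.all (fun b => Nat.beq (BN a b) 0) && orthB l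

namespace Emb
variable (E : Emb Q)

lemma jpolar (u v : V) : polar Q8 (E.j u) (E.j v) = polar Q u v := by
  simp only [polar, ← map_add, E.jQ]

lemma Q_tv {w : ℕ} (h : E.ok w = true) : Q (E.tv w) = QN w := by rw [← E.jQ, E.j_tv w h, Q_toV]

lemma polar_tv {u w : ℕ} (hu : E.ok u = true) (h : E.ok w = true) : polar Q (E.tv u) (E.tv w) = BN u w := by
  rw [← E.jpolar, E.j_tv w h, E.j_tv u hu, polar_toV]

lemma map_j_tv {l : List ℕ} (h : l.all E.ok = true) : (l.map E.tv).map E.j = l.map toV := by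
  rw [List.map_map]
  exact List.map_congr_left fun a ha => E.j_tv a (List.all_eq_true.1 h a ha)

lemma ι_rp {l : List ℕ} (h : l.all E.ok = true) : E.ι (rp Q (l.map E.tv)) = ogL (rW l) := by
  rw [rp, map_list_prod, ogL, rW, List.map_map, List.map_map, List.map_map]
  congr 1
  exact List.map_congr_left fun a ha => by simp [E.ι_refl, E.j_tv a (List.all_eq_true.1 h a ha), Op.og]

lemma ι_blk (t : List (ZMod 3)) (l : List V) : E.ι (blk Q t l) = blk Q8 t (l.map E.j) := by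
  have h1 : ∀ (l : List V) i, (l.map E.j).getD i 0 = E.j (l.getD i 0) := fun l i => by
    rw [← List.getD_map (f := E.j), map_zero]
  induction t generalizing l with
  | nil => simp [blk]
  | cons ε t ih =>
    simp only [blk]
    split_ifs <;> rw [map_mul, ih, E.ι_sg, List.map_drop] <;> simp only [h1, map_add]

lemma rp_mem {l : List (ℕ × ℕ)} (h : (prW l).all E.ok = true) (h' : prOK l = true) :
    rp Q ((prW l).map E.tv) ∈ commutator (OG Q) := by
  induction l with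
  | nil => exact one_mem _
  | cons p l ih =>
    simp only [prW, List.flatMap_cons, List.cons_append, List.nil_append, List.all_cons, Bool.and_eq_true, prOK,
      List.map_cons, rp, List.prod_cons] at h h' ih ⊢
    rw [← mul_assoc]
    refine mul_mem ?_ (ih h.2.2 h'.2)
    rw [mem_comm_iff, map_mul, ab_refl_eq (v := E.tv p.2), ab_refl_sq]
    rw [E.Q_tv h.1, E.Q_tv h.2.1, Nat.eq_of_beq_eq_true h'.1]

lemma orthL {l : List ℕ} (h : l.all E.ok = true) (h' : orthB l = true) : OrthL Q (l.map E.tv) := by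
  induction l with
  | nil => exact orthL_nil
  | cons a l ih =>
    simp only [List.all_cons, Bool.and_eq_true, orthB, Bool.not_eq_true', List.all_eq_true] at h h'
    rw [List.map_cons, orthL_cons]
    refine ⟨?_, fun b hb => ?_, ih (List.all_eq_true.2 h.2) h'.2⟩
    · rw [E.Q_tv h.1, Ne, QN_eq_zero]
      exact Nat.ne_of_beq_eq_false h'.1.1
    · obtain ⟨b, hb', rfl⟩ := List.mem_map.1 hb
      rw [E.polar_tv h.1 (h.2 b hb'), Nat.eq_of_beq_eq_true (h'.1.2 b hb')]; rfl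

lemma CO_map {x y : OG Q} (h : CO x y) : CO (E.ι x) (E.ι y) := by
  obtain ⟨g, hg, rfl⟩ := h
  refine ⟨E.ι g, ?_, by simp⟩
  have := Subgroup.mem_map_of_mem E.ι hg
  rw [commutator_def, Subgroup.map_commutator] at this
  exact Subgroup.commutator_mono le_top le_top this

/-- test of a conjugacy certificate -/
def coOK (A B : List Op) (h : List (ℕ × ℕ)) : Bool :=
  (prW h).all E.ok && prOK h && eqW (rW (prW h) ++ A) (B ++ rW (prW h))

lemma CO_of_coOK {A B : List Op} {h : List (ℕ × ℕ)} (H : E.coOK A B h = true) {x y : OG Q} (hx : E.ι x = ogL A)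
    (hy : E.ι y = ogL B) : CO x y := by
  simp only [coOK, Bool.and_eq_true] at H
  refine ⟨_, E.rp_mem H.1.1 H.1.2, E.inj ?_⟩
  have := ogL_eq_of_eqW H.2
  rw [ogL_append, ogL_append] at this
  rw [map_mul, map_mul, map_inv, E.ι_rp H.1.1, hx, hy, this, mul_inv_cancel_right]

/-- test of the certificates of one pattern -/
def rowOK (a b n : ℕ) (R : ℕ → List Op) (c : List ℕ × List ℕ × List (ℕ × List (ℕ × ℕ))) : Bool :=
  c.2.1.all E.ok && orthB c.2.1 && decide (c.2.1.map (fun w => (QN w : ZMod 3)) = pat (ct c.1)) &&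
    ([[], [a], [b], [a, b]].zipIdx.all fun p =>
      Nat.blt (c.2.2.getD p.2 (0, [])).1 n &&
      E.coOK (rW p.1 ++ blkW c.1 c.2.1 ++ rW p.1.reverse) (R (c.2.2.getD p.2 (0, [])).1) (c.2.2.getD p.2 (0, [])).2)

lemma rp_reverse (l : List V) : rp Q l.reverse = (rp Q l)⁻¹ := by
  induction l with
  | nil => simp [rp]
  | cons a l ih => simp only [rp, List.reverse_cons, List.map_append, List.prod_append, List.map_cons,
      List.map_nil, List.prod_cons, List.prod_nil, mul_one, mul_inv_rev, refl_inv] at ih ⊢; rw [ih]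

theorem exists_CO [FiniteDimensional (ZMod 3) V] (hQ : Nondeg Q) (hE : commutator (OG Q) = EE Q) {a b n : ℕ}
    (ha : E.ok a = true) (hb : E.ok b = true) (ha' : QN a = 1) (hb' : QN b = 2) {R : ℕ → List Op}
    {z : ℕ → OG Q} (hz : ∀ k < n, E.ι (z k) = ogL (R k)) {c : List ℕ × List ℕ × List (ℕ × List (ℕ × ℕ))}
    (H : E.rowOK a b n R c = true) {l : List V} (hl : OrthL Q l) (hq : l.map Q = pat (ct c.1)) :
    ∃ k < n, CO (blk Q (ct c.1) l) (z k) := by
  simp only [rowOK, Bool.and_eq_true, decide_eq_true_eq, List.all_eq_true] at H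
  obtain ⟨⟨⟨h1, h2⟩, h3⟩, h4⟩ := H
  have h1' := List.all_eq_true.2 h1
  obtain ⟨g, hg⟩ := witt two_ne (E.orthL h1' h2) hl (by
    rw [hq, ← h3, List.map_map]
    exact List.map_congr_left fun w hw => E.Q_tv (h1 w hw))
  obtain ⟨cs, hc, hgc⟩ := exists_coset hQ hE (a := E.tv a) (b := E.tv b) (by rw [E.Q_tv ha, ha']; rfl)
    (by rw [E.Q_tv hb, hb']; rfl) g
  obtain ⟨p, hp, hp1, hp2⟩ : ∃ p ∈ [[], [a], [b], [a, b]].zipIdx, p.1.map E.tv = cs ∧ p.1.all E.ok = true := by
    simp only [List.mem_cons, List.not_mem_nil, or_false] at hc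
    rcases hc with rfl | rfl | rfl | rfl
    · exact ⟨([], 0), by simp, rfl, rfl⟩
    · exact ⟨([a], 1), by simp, rfl, by simp [ha]⟩
    · exact ⟨([b], 2), by simp, rfl, by simp [hb]⟩
    · exact ⟨([a, b], 3), by simp, rfl, by simp [ha, hb]⟩
  obtain ⟨h5, h6⟩ := h4 p hp
  have h7 := Nat.blt_eq.mp h5
  refine ⟨_, h7, CO.trans (y := rp Q cs * blk Q (ct c.1) (c.2.1.map E.tv) * (rp Q cs)⁻¹)
    (CO.symm ⟨_, hgc, ?_⟩) (E.CO_of_coOK h6 ?_ (hz _ h7))⟩
  · rw [← hg, ← blk_conj]; group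
  · rw [ogL_append, ogL_append, map_mul, map_mul, ← rp_reverse, ← hp1, ← List.map_reverse, E.ι_rp hp2,
      E.ι_rp (by simpa using hp2), E.ι_blk, E.map_j_tv h1', ogL_blkW]

end Emb

end generic

/-- the trivial embedding -/
noncomputable def emb8 : Emb Q8 where
  j := LinearMap.id
  ι := MonoidHom.id _
  inj := Function.injective_id
  jQ _ := rfl
  ι_refl _ := rfl
  ι_sg _ _ := rfl
  ok _ := true
  tv := toV
  j_tv _ _ := rfl

/-- test of the certificate for the invariant -/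
def typOK (A : List Op) (c : ℕ × ℕ × ℕ × ℕ × ℕ × ℕ) : Bool :=
  (bas.all fun b => Nat.beq (mk8 fun i => dg (run A (run A b)) i + dg (run A b) i + dg b i)
    (mk8 fun i => c.1 * BN c.2.2.1 b * dg c.2.2.1 i + c.2.1 * BN c.2.2.2.1 b * dg c.2.2.2.1 i)) &&
  Nat.beq (BN c.2.2.1 c.2.2.2.2.1) 1 && Nat.beq (BN c.2.2.2.1 c.2.2.2.2.1) 0 &&
  Nat.beq (BN c.2.2.1 c.2.2.2.2.2) 0 && Nat.beq (BN c.2.2.2.1 c.2.2.2.2.2) 1 && eqW (A ++ A ++ A) []

lemma typ_of_typOK {A : List Op} {c : ℕ × ℕ × ℕ × ℕ × ℕ × ℕ} (H : typOK A c = true) :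
    ogL A ^ 3 = 1 ∧ ∀ p, p ∈ typ (ogL A) ↔ tf c.1 c.2.1 p := by
  obtain ⟨ε₁, ε₂, a₁, a₂, d₁, d₂⟩ := c
  simp only [typOK, Bool.and_eq_true, List.all_eq_true] at H
  obtain ⟨⟨⟨⟨⟨h0, h1⟩, h2⟩, h3⟩, h4⟩, h5⟩ := H
  refine ⟨?_, mem_typ_iff (a₁ := toV a₁) (a₂ := toV a₂) (d₁ := toV d₁) (d₂ := toV d₂) (fun v => ?_)
    (by rw [polar_toV, Nat.eq_of_beq_eq_true h1]; rfl) (by rw [polar_toV, Nat.eq_of_beq_eq_true h2]; rfl)
    (by rw [polar_toV, Nat.eq_of_beq_eq_true h3]; rfl) (by rw [polar_toV, Nat.eq_of_beq_eq_true h4]; rfl)⟩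
  · have := ogL_eq_of_eqW h5
    rwa [ogL_append, ogL_append, ogL_nil, ← pow_two, ← pow_succ] at this
  · have := linear_ext (f := (ogL A).1.toLinearMap ∘ₗ (ogL A).1.toLinearMap + (ogL A).1.toLinearMap + LinearMap.id)
      (g := ((ε₁ : ZMod 3) • Q8.polarBilin (toV a₁)).smulRight (toV a₁) +
        ((ε₂ : ZMod 3) • Q8.polarBilin (toV a₂)).smulRight (toV a₂)) fun b hb => by
      funext c
      have := congrArg (fun n => toV n c) (Nat.eq_of_beq_eq_true (h0 b hb))
      simp only [toV_mk8] at this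
      push_cast at this
      simpa [ogL_toV, polar_toV, toV] using this
    simpa [NN] using LinearMap.congr_fun this v

/-- test of non-triviality -/
def neW (A : List Op) : Bool := bas.any fun b => (List.range 8).any fun i => dg (run A b) i % 3 != dg b i % 3

lemma ne_one_of_neW {A : List Op} (H : neW A = true) : ogL A ≠ 1 := by
  simp only [neW, List.any_eq_true, List.mem_range, bne_iff_ne] at H
  obtain ⟨b, -, i, hi, h⟩ := H
  intro h1
  have h2 : encP (decP i) = i := by interval_cases i <;> rfl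
  have := congrFun (ogL_toV A b) (decP i)
  rw [h1, OG.one_apply, toV, toV, h2, ZMod.natCast_eq_natCast_iff'] at this
  exact h this.symm

theorem realizeEqns_O3Cert : True := by
  have := @CA.O3.Emb.rowOK.eq_1.{0}
  have := @CA.O3.Emb.rowOK.eq_def.{0}
  have := @CA.O3.Emb.rowOK.congr_simp.{0}
  have := @CA.O3.orthB.eq_1
  have := @CA.O3.orthB.eq_2
  have := @CA.O3.orthB.eq_def
  have := @CA.O3.orthB.congr_simp
  have := @CA.O3.neW.eq_1
  have := @CA.O3.neW.eq_def
  have := @CA.O3.neW.congr_simp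
  have := @CA.O3.rW.eq_1
  have := @CA.O3.rW.eq_def
  have := @CA.O3.rW.congr_simp
  have := @CA.O3.typOK.eq_1
  have := @CA.O3.typOK.eq_def
  have := @CA.O3.typOK.congr_simp
  have := @CA.O3.prW.eq_1
  have := @CA.O3.prW.eq_def
  have := @CA.O3.prW.congr_simp
  have := @CA.O3.blkW.eq_1
  have := @CA.O3.blkW.eq_2
  have := @CA.O3.blkW.eq_def
  have := @CA.O3.blkW.congr_simp
  have := @CA.O3.Emb.coOK.eq_1.{0}
  have := @CA.O3.Emb.coOK.eq_def.{0}
  have := @CA.O3.Emb.coOK.congr_simp.{0}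
  have := @CA.O3.prOK.eq_1
  have := @CA.O3.prOK.eq_def
  have := @CA.O3.prOK.congr_simp
  have := @CA.O3.emb8.eq_1
  have := @CA.O3.emb8.eq_def
  have := @CA.O3.emb8.congr_simp
  have := @CA.O3.ct.eq_1
  have := @CA.O3.ct.eq_def
  have := @CA.O3.ct.congr_simp
  have := @CA.O3.typ.eq_1.{0}
  have := @CA.O3.typ.eq_def.{0}
  have := @CA.O3.typ.congr_simp.{0}
  have := @CA.O3.NN.eq_1.{0}
  have := @CA.O3.NN.eq_def.{0}
  have := @CA.O3.NN.congr_simp.{0}
  have := @CA.O3.CO.eq_1.{0}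
  have := @CA.O3.CO.eq_def.{0}
  have := @CA.O3.CO.congr_simp.{0}
  have := @CA.O3.rp.eq_1.{0}
  have := @CA.O3.rp.eq_def.{0}
  have := @CA.O3.rp.congr_simp.{0}
  have := @CA.O3.tf.eq_1
  have := @CA.O3.tf.eq_def
  have := @CA.O3.tf.congr_simp
  trivial

end CA.O3
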