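/-
The thirteen classes of subgroups of order three of the Chevalley group D4 over the field with three elements.
-/
import Cfsg.Agent.O3.Cert
import Cfsg.Agent.S1054
import Cfsg.Agent.Orth.Index

set_option autoImplicit false

namespace CA.O3
open Cfsg Cfsg.Lie Cfsg.Lie.ChevalleyDatum Cfsg.Agent.Orth QuadraticMap Module
open CA.Chev hiding refl refl_inv refl_mul_self

/-- the Chevalley group -/
abbrev Gam : Type := chevD4.group (ZMod 3)

/-- the projection -/
noncomputable abbrev pr : St →* Gam := stProj chevD4 (ZMod 3)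

instance simpleGam : IsSimpleGroup Gam := (Cfsg.Agent.S1054.result _ (by simp)).1

/-- words in root elements -/
noncomputable def wS (w : List (ℕ × ℕ)) : St := (w.map fun p => (stSt chevD4 (ZMod 3)).xN p.1 p.2).prod

/-- words in root elements as letters -/
def xW (w : List (ℕ × ℕ)) : List Op := w.map fun p => Op.rt p.1 p.2

lemma psi_wS (w : List (ℕ × ℕ)) : psi (wS w) = ogL (xW w) := by
  rw [wS, map_list_prod, ogL, xW, List.map_map, List.map_map]; rfl

/-- representatives -/
def YL : List (List (ℕ × ℕ)) := [[(14, 1)], [(18, 1), (13, 1)], [(13, 1), (12, 1)], [(12, 1), (18, 1)], [(18, 1), (13,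
    2)], [(13, 1), (12, 2)], [(12, 1), (18, 2)], [(18, 1), (13, 1), (12, 1)], [(18, 2), (13, 1), (12, 1)], [(18, 1),
    (13, 2), (12, 1)], [(18, 1), (13, 1), (12, 2)], [(18, 1), (13, 1), (12, 1), (0, 1)], [(18, 1), (13, 1), (12, 1),
    (0, 2)]]

/-- certificates for the invariants -/
def TL : List (List (ℕ × ℕ × ℕ × ℕ × ℕ × ℕ)) := [[(0, 0, 1, 4, 256, 1024), (0, 0, 1, 4, 256, 1024), (2, 0, 4096, 1,
    16, 256), (0, 0, 1, 4, 256, 1024), (0, 0, 1, 4, 256, 1024), (1, 0, 4096, 1, 16, 256), (0, 0, 1, 4, 256, 1024), (2,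
    0, 4096, 1, 16, 256), (2, 0, 4096, 1, 16, 256), (1, 0, 4096, 1, 16, 256), (1, 0, 4096, 1, 16, 256), (2, 1, 4096,
    4, 16, 1024), (2, 2, 4096, 4, 16, 1024)], [(0, 0, 1, 4, 256, 1024), (2, 0, 4096, 1, 16, 256), (0, 0, 1, 4, 256,
    1024), (0, 0, 1, 4, 256, 1024), (1, 0, 4096, 1, 16, 256), (0, 0, 1, 4, 256, 1024), (0, 0, 1, 4, 256, 1024), (2, 0,
    4096, 1, 16, 256), (1, 0, 4096, 1, 16, 256), (1, 0, 4096, 1, 16, 256), (2, 0, 4096, 1, 16, 256), (2, 1, 4096, 4,
    16, 1024), (2, 2, 4096, 4, 16, 1024)], [(0, 0, 1, 4, 256, 1024), (0, 0, 1, 4, 256, 1024), (0, 0, 1, 4, 256, 1024),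
    (2, 0, 4096, 1, 16, 256), (0, 0, 1, 4, 256, 1024), (0, 0, 1, 4, 256, 1024), (1, 0, 4096, 1, 16, 256), (2, 0, 4096,
    1, 16, 256), (1, 0, 4096, 1, 16, 256), (2, 0, 4096, 1, 16, 256), (1, 0, 4096, 1, 16, 256), (2, 1, 4096, 4, 16,
    1024), (2, 2, 4096, 4, 16, 1024)]]

/-- conjugacy certificates -/
def C8 : List (List ℕ × List ℕ × List (ℕ × List (ℕ × ℕ))) := [
  ([0], [257, 258, 1028, 1032], [(0, [(33168, 1602), (20837, 5136), (18848, 577), (4452, 38033)]), (0, [(2369, 37001),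
    (8352, 34946), (33104, 8596), (5216, 2377)]), (0, [(17954, 33322), (25866, 26216), (16544, 18945), (649, 37412)]),
    (0, [(1682, 10760), (33281, 258), (25864, 42090), (37402, 26629)])]),
  ([1], [257, 258, 1028], [(5, [(42568, 21642), (24640, 582), (18456, 25857), (41024, 43109)]), (5, [(10497, 5125),
    (5188, 34152), (2153, 42133), (10498, 1032)]), (5, [(10502, 42657), (23168, 34121), (21574, 5393)]), (5, [(21129,
    5201), (2308, 20612), (38532, 4202)])]),
  ([2], [257, 258, 1032], [(2, [(42624, 32896), (25605, 2321), (33161, 10257)]), (2, [(22090, 43136), (19016, 34952),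
    (23106, 41024), (43266, 27044), (42585, 43025)]), (2, [(32896, 6658), (39552, 33098), (16681, 1189), (43400,
    2306)]), (2, [(18762, 33864), (10505, 22600), (5141, 9749)])]),
  ([0, 0], [257, 258, 1028, 1032, 4112, 4128, 16448, 16512], [(1, [(4240, 9250), (43330, 16473), (4776, 8596), (1282,
    2085)]), (3, [(37960, 33381), (16930, 23206), (9574, 2312), (1558, 5396)]), (6, [(18514, 25124), (16550, 4258),
    (6666, 22154)]), (4, [(5456, 4117), (40978, 8528), (37978, 17688)])]),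
  ([0, 1], [257, 258, 1028, 1032, 4112, 4128, 16448], [(9, [(21890, 23172), (21129, 16649), (38217, 41226)]), (10,
    [(35205, 22929), (16512, 10500), (42626, 16550)]), (9, [(38017, 22592), (16520, 43524), (17476, 18504)]), (10,
    [(24966, 43136), (17728, 36997), (41544, 9354)])]),
  ([0, 2], [257, 258, 1028, 1032, 4112, 4128, 16512], [(8, [(43078, 10630), (25989, 34464), (10500, 35240)]), (8,
    [(1030, 24904), (10245, 41544), (521, 33924)]), (7, [(10568, 22790), (22090, 1030), (35140, 25664)]), (7, [(26756,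
    578), (17922, 4674), (8841, 34186)])]),
  ([1, 0], [257, 258, 1028, 4112, 1032, 16448, 4128], [(9, [(8744, 41608), (16768, 21633), (17418, 1617)]), (10,
    [(21002, 36992), (35141, 4490), (42406, 27226)]), (9, [(26888, 42568), (1670, 25220), (26280, 43350)]), (10,
    [(2568, 18946), (43650, 9862), (34853, 21786)])]),
  ([1, 1], [257, 258, 1028, 4112, 1032, 16448], [(12, [(9765, 6288), (43270, 20841), (41544, 21610)]), (12, [(21066,
    33088), (38033, 17808), (42330, 1381), (5766, 26918)]), (12, [(261, 20546), (2312, 2629), (9241, 1316)]), (12,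
    [(36996, 38225), (1570, 34442), (16897, 26260), (33092, 1670)])]),
  ([1, 2], [257, 258, 1028, 4112, 1032, 4128], [(11, [(37270, 41545), (297, 2648), (4490, 21097), (8212, 35090)]),
    (11, [(37000, 41608), (35078, 24648), (26966, 17665), (262, 17537)]), (11, [(20552, 33345), (16480, 4645), (16992,
    38550), (8450, 42386)]), (11, [(32905, 38528), (35462, 41234), (1162, 42282)])]),
  ([2, 0], [257, 258, 1032, 1028, 4128, 4112, 16512], [(8, [(37504, 1418), (42629, 34338), (1544, 26641)]), (8,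
    [(37504, 24644), (39042, 16964), (8356, 34130), (21573, 24960)]), (7, [(43654, 16452), (26698, 26250), (21924,
    35417)]), (7, [(24896, 17033), (41348, 32922), (5761, 38937)])]),
  ([2, 1], [257, 258, 1032, 1028, 4128, 4112], [(11, [(37441, 550), (2658, 4742), (4490, 8613)]), (11, [(8457, 20553),
    (4362, 33800), (16650, 4776), (342, 37016)]), (11, [(32904, 16914), (289, 4394), (5160, 22881), (36932, 33026)]),
    (11, [(33353, 8484), (4122, 289), (2054, 4134)])]),
  ([2, 2], [257, 258, 1032, 1028, 4128, 16512], [(12, [(8457, 16914), (24712, 21058), (9494, 9754)]), (12, [(42017,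
    41290), (1297, 33298), (41029, 22608)]), (12, [(8453, 26793), (39202, 37905), (16713, 1553), (39252, 42341)]),
    (12, [(41344, 35210), (37508, 2376), (21848, 43690), (41606, 37257)])])]

/-- action of triality -/
def CT : List (ℕ × List (ℕ × ℕ)) := [(0, []), (2, []), (3, []), (1, []), (5, []), (6, []), (4, []), (7, []), (9, []),
    (10, []), (8, []), (11, []), (12, [])]

/-- action of the graph involution -/
def CS : List (ℕ × List (ℕ × ℕ)) := [(0, []), (3, []), (2, []), (1, []), (6, [(1636, 19040), (4196, 22628), (23058,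
    38185)]), (5, [(22921, 25225), (37192, 38208), (21513, 10310)]), (4, [(33122, 27046), (25728, 24977), (21162,
    16678)]), (7, []), (8, []), (10, []), (9, []), (11, []), (12, [])]

/-- the `k`-th word -/
def Yw (k : ℕ) : List (ℕ × ℕ) := YL.getD k []

/-- the `k`-th representative -/
noncomputable def yy (k : ℕ) : Gam := pr (wS (Yw k))

/-- the image of a word -/
def mapW (φ : RMap chevD4 chevD4 0) (w : List (ℕ × ℕ)) : List (ℕ × ℕ) :=
  w.map fun p => (φ.ι p.1, if φ.γ p.1 = 1 then p.2 else 2 * p.2)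

lemma chk_C8 : C8.all (emb8.rowOK 257 513 13 fun k => xW (Yw k)) = true := by decide +kernel

lemma chk_TL : ∀ k < 13, ∀ m < 3, typOK (xW ((mapW triD4)^[m] (Yw k))) ((TL.getD m []).getD k 0) = true := by
  decide +kernel

lemma chk_sep : ∀ i < 13, ∀ j < 13, (∀ m < 3, ∀ p, tf ((TL.getD m []).getD i 0).1 ((TL.getD m []).getD i 0).2.1 p ↔
    tf ((TL.getD m []).getD j 0).1 ((TL.getD m []).getD j 0).2.1 p) → i = j := by decide +kernel

lemma chk_ne : ∀ k < 13, neW (xW (Yw k)) = true := by decide +kernel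

lemma chk_CT : ∀ k < 13, (CT.getD k (0, [])).1 < 13 ∧
    emb8.coOK (xW (mapW triD4 (Yw k))) (xW (Yw (CT.getD k (0, [])).1)) (CT.getD k (0, [])).2 = true := by
  decide +kernel

lemma chk_CS : ∀ k < 13, (CS.getD k (0, [])).1 < 13 ∧
    emb8.coOK (xW (mapW swD4 (Yw k))) (xW (Yw (CS.getD k (0, [])).1)) (CS.getD k (0, [])).2 = true := by
  decide +kernel

lemma chk_lt : ∀ k < 13, ∀ m < 3, ∀ p ∈ (mapW triD4)^[m] (Yw k), p.1 < 24 := by decide +kernel

lemma psi_cube {k : ℕ} (hk : k < 13) : psi (wS (Yw k)) ^ 3 = 1 := by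
  rw [psi_wS]; exact (typ_of_typOK (chk_TL k hk 0 (by omega))).1

lemma negOne_ne : negOne Q8 ≠ 1 := fun h => two_ne ((negOne_eq_one_iff (hp8 0)).1 h)

lemma negOne_sq : negOne Q8 * negOne Q8 = 1 := OG.ext fun v => by simp [OG.mul_apply, negOne_apply, OG.one_apply]

lemma negOne_cube : negOne Q8 ^ 3 = negOne Q8 := by rw [pow_succ, pow_two, negOne_sq, one_mul]

lemma pr_eq_one_iff {g : St} : pr g = 1 ↔ psi g = 1 ∨ psi g = negOne Q8 := by
  let N : Subgroup St :=
    { carrier := {g | psi g = 1 ∨ psi g = negOne Q8}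
      one_mem' := Or.inl (map_one _)
      mul_mem' := by
        rintro a b (ha | ha) (hb | hb) <;> simp [ha, hb, negOne_sq]
      inv_mem' := by
        rintro a (ha | ha) <;> simp [ha, inv_eq_of_mul_eq_one_right negOne_sq] }
  have hN : N.Normal := ⟨by
    rintro a (ha | ha) g
    · left; simp [ha]
    · right; simp [ha, negOne_comm]⟩
  have h1 : pr.ker ≤ N := fun g hg => by
    rw [stProj_ker_eq_center coxD4, Subgroup.mem_center_iff] at hg
    refine eq_one_or_negOne_of_comm nondeg8 (by simp) (hp8 0) fun k hk => ?_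
    rw [← comm8, ← psi_range] at hk
    obtain ⟨k, rfl⟩ := hk
    rw [← map_mul, hg, map_mul]
  refine ⟨fun h => h1 h, fun h => ?_⟩
  rcases (hN.map pr stProj_surjective).eq_bot_or_eq_top with h2 | h2
  · have : pr g ∈ N.map pr := Subgroup.mem_map_of_mem _ h
    rwa [h2] at this
  · have h3 : wS (Yw 0) ∈ N := by rw [← Subgroup.comap_map_eq_self h1, h2]; trivial
    rcases h3 with h3 | h3
    · exact absurd (psi_wS _ ▸ h3) (ne_one_of_neW (chk_ne 0 (by omega)))
    · have := psi_cube (k := 0) (by omega)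
      rw [h3, negOne_cube] at this
      exact absurd this negOne_ne

lemma isConj_of_CO {a b : St} (h : CO (psi a) (psi b)) : IsConj (pr a) (pr b) := by
  obtain ⟨g, hg, e⟩ := h
  rw [← psi_range] at hg
  obtain ⟨g, rfl⟩ := hg
  have : pr (g * a * g⁻¹ * b⁻¹) = 1 := pr_eq_one_iff.2 (Or.inl (by simp [e]))
  rw [map_mul, map_inv, mul_inv_eq_one, map_mul, map_mul, map_inv] at this
  exact isConj_iff.2 ⟨_, this⟩

lemma CO_of_isConj {a b : St} (h : IsConj (pr a) (pr b)) (ha : psi a ^ 3 = 1) (hb : psi b ^ 3 = 1) :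
    CO (psi a) (psi b) := by
  obtain ⟨c, hc⟩ := isConj_iff.1 h
  obtain ⟨g, rfl⟩ := stProj_surjective c
  have h1 : pr (g * a * g⁻¹ * b⁻¹) = 1 := by simp [hc]
  refine ⟨psi g, psi_range ▸ ⟨g, rfl⟩, ?_⟩
  rcases pr_eq_one_iff.1 h1 with h2 | h2
  · simpa [mul_inv_eq_one] using h2
  · simp only [map_mul, map_inv, mul_inv_eq_iff_eq_mul (b := psi b)] at h2
    have h3 := congrArg (· ^ 3) h2
    simp only [conj_pow, ha, Commute.mul_pow (show Commute (negOne Q8) (psi b) from (negOne_comm _).symm), hb,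
      negOne_cube] at h3
    exact absurd (by simpa using h3.symm) negOne_ne

lemma exists_lift {y : Gam} (hy : y ^ 3 = 1) : ∃ a, pr a = y ∧ psi a ^ 3 = 1 := by
  obtain ⟨a, rfl⟩ := stProj_surjective y
  refine ⟨a ^ 4, by rw [map_pow, pow_succ, hy, one_mul], ?_⟩
  rw [← map_pow, pow_right_comm, map_pow]
  rcases pr_eq_one_iff.1 ((map_pow _ _ _).trans hy) with h | h <;> rw [h]
  · simp
  · rw [pow_succ, negOne_cube, negOne_sq]

lemma exists_row8 {t : List (ZMod 3)} (ht : (pat t).length ≤ 8) : t = [] ∨ ∃ c ∈ C8, ct c.1 = t := by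
  have h3 : ∀ ε t, (pat t).length + 3 ≤ (pat (ε :: t)).length := fun ε t => by
    simp only [pat]; split_ifs <;> simp
  match t with
  | [] => exact Or.inl rfl
  | [a] => right; revert a; decide +kernel
  | [a, b] => right; revert a b; decide +kernel
  | a :: b :: c :: t => have := h3 a (b :: c :: t); have := h3 b (c :: t); have := h3 c t; omega

theorem exists_CO8 {x : OG Q8} (hx : x ^ 3 = 1) (h1 : x ≠ 1) : ∃ k < 13, CO x (psi (wS (Yw k))) := by
  obtain ⟨t, l, h2, h3, rfl⟩ := exists_blk nondeg8 hx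
  have h4 := h2.length_le two_ne
  rcases exists_row8 (t := t) (by simpa [← h3] using h4) with rfl | ⟨c, hc, rfl⟩
  · exact absurd rfl h1
  · exact emb8.exists_CO nondeg8 comm8 rfl rfl rfl rfl (fun k _ => psi_wS _) (List.all_eq_true.1 chk_C8 c hc) h2 h3

theorem exists_isConj_yy {y : Gam} (hy : y ^ 3 = 1) (h1 : y ≠ 1) : ∃ k < 13, IsConj y (yy k) := by
  obtain ⟨a, rfl, ha⟩ := exists_lift hy
  obtain ⟨k, hk, h⟩ := exists_CO8 ha fun h => h1 (pr_eq_one_iff.2 (Or.inl h))
  exact ⟨k, hk, isConj_of_CO h⟩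

lemma yy_cube {k : ℕ} (hk : k < 13) : yy k ^ 3 = 1 := by
  rw [yy, ← map_pow, pr_eq_one_iff, map_pow]; exact Or.inl (psi_cube hk)

lemma yy_ne {k : ℕ} (hk : k < 13) : yy k ≠ 1 := fun h => by
  rcases pr_eq_one_iff.1 h with h3 | h3
  · exact absurd (psi_wS _ ▸ h3) (ne_one_of_neW (chk_ne k hk))
  · have := psi_cube hk
    rw [h3, negOne_cube] at this
    exact absurd this negOne_ne

/-- compatible automorphisms attached to a root map -/
structure Lift (φ : RMap chevD4 chevD4 0) (α : St ≃* St) (β : MulAut Gam) : Prop where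
  st : ∀ r t, α (xS r t) = xS (φ.rt r) (φ.γ r * t)
  gam : ∀ r t, β (xG r t) = xG (φ.rt r) (φ.γ r * t)
  comp : ∀ g, β (pr g) = pr (α g)

lemma exists_Lift (φ : RMap chevD4 chevD4 0) (hb : Function.Bijective (φ.lift Nat.cast_zero (stSt chevD4 (ZMod 3))))
    (he : ∀ r : Rt chevD4, φ.e r = 1) : ∃ p : (St ≃* St) × MulAut Gam, Lift φ p.1 p.2 := by
  obtain ⟨α, β, h1, h2, h3⟩ := φ.exists_aut coxD4 Nat.cast_zero hb (RingEquiv.refl _)
  exact ⟨(α, β), fun r t => by simpa [he] using h1 r t, fun r t => by simpa [he] using h2 r t, h3⟩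

lemma Lift.map_wS {φ : RMap chevD4 chevD4 0} {α : St ≃* St} {β : MulAut Gam} (h : Lift φ α β) {w : List (ℕ × ℕ)}
    (hw : ∀ p ∈ w, p.1 < 24) : α (wS w) = wS (mapW φ w) := by
  rw [wS, map_list_prod, wS, mapW, List.map_map, List.map_map]
  congr 1
  refine List.map_congr_left fun p hp => ?_
  have h1 := (stSt chevD4 (ZMod 3)).xN_val ⟨p.1, hw p hp⟩ p.2
  have h2 := fun t => (stSt chevD4 (ZMod 3)).xN_val (φ.rt ⟨p.1, hw p hp⟩) t
  simp only [RMap.rt_val] at h1 h2
  simp only [Function.comp_apply, h1, h2, stSt_x, h.st]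
  congr 1
  rcases φ.γ_unit p.1 (hw p hp) with h | h <;> simp [h]
  exact (by decide : ∀ t : ZMod 3, -t = 2 * t) _

/-- triality -/
noncomputable def tauP : (St ≃* St) × MulAut Gam := (exists_Lift triD4 triD4_bij (by decide +kernel)).choose

/-- the graph involution -/
noncomputable def sigP : (St ≃* St) × MulAut Gam := (exists_Lift swD4 swD4_bij (by decide +kernel)).choose

/-- triality -/
noncomputable def tau : MulAut Gam := tauP.2

/-- the graph involution -/
noncomputable def sig : MulAut Gam := sigP.2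

lemma lift_tau : Lift triD4 tauP.1 tau := (exists_Lift triD4 triD4_bij (by decide +kernel)).choose_spec

lemma lift_sig : Lift swD4 sigP.1 sig := (exists_Lift swD4 swD4_bij (by decide +kernel)).choose_spec

lemma tau_pow_yy {k : ℕ} (hk : k < 13) {m : ℕ} (hm : m < 3) :
    (tau ^ m) (yy k) = pr (wS ((mapW triD4)^[m] (Yw k))) := by
  induction m with
  | zero => rfl
  | succ m ih =>
    rw [pow_succ', MulAut.mul_apply, ih (by omega), lift_tau.comp, lift_tau.map_wS (chk_lt k hk m (by omega)),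
      Function.iterate_succ_apply']

theorem eq_of_isConj_yy {i j : ℕ} (hi : i < 13) (hj : j < 13) (h : IsConj (yy i) (yy j) ∨ IsConj (yy i) (yy j)⁻¹) :
    i = j := by
  refine chk_sep i hi j hj fun m hm p => ?_
  obtain ⟨h1, h2⟩ := typ_of_typOK (chk_TL i hi m hm)
  obtain ⟨h3, h4⟩ := typ_of_typOK (chk_TL j hj m hm)
  rw [← h2, ← h4]
  rw [← psi_wS] at h1 h3 ⊢
  rw [← psi_wS]
  rcases h with h | h
  · have h5 := (tau ^ m).toMonoidHom.map_isConj h
    simp only [MulEquiv.coe_toMonoidHom, tau_pow_yy hi hm, tau_pow_yy hj hm] at h5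
    obtain ⟨g, -, hg⟩ := CO_of_isConj h5 h1 h3
    rw [← hg, typ_conj]
  · have h5 := (tau ^ m).toMonoidHom.map_isConj h
    simp only [MulEquiv.coe_toMonoidHom, map_inv, tau_pow_yy hi hm, tau_pow_yy hj hm] at h5
    rw [← map_inv] at h5
    obtain ⟨g, -, hg⟩ := CO_of_isConj h5 h1 (by rw [map_inv, inv_pow, h3, inv_one])
    rw [← typ_inv h3, ← map_inv, ← hg, typ_conj]

lemma tau_yy {k : ℕ} (hk : k < 13) : IsConj (tau (yy k)) (yy (CT.getD k (0, [])).1) := by
  rw [yy, lift_tau.comp, lift_tau.map_wS (w := Yw k) (chk_lt k hk 0 (by omega))]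
  exact isConj_of_CO (emb8.CO_of_coOK (chk_CT k hk).2 (psi_wS _) (psi_wS _))

lemma sig_yy {k : ℕ} (hk : k < 13) : IsConj (sig (yy k)) (yy (CS.getD k (0, [])).1) := by
  rw [yy, lift_sig.comp, lift_sig.map_wS (w := Yw k) (chk_lt k hk 0 (by omega))]
  exact isConj_of_CO (emb8.CO_of_coOK (chk_CS k hk).2 (psi_wS _) (psi_wS _))

theorem realizeEqns_O3D4Cls : True := by
  have := @CA.O3.wS.eq_1
  have := @CA.O3.wS.eq_def
  have := @CA.O3.wS.congr_simp
  have := @CA.O3.mapW.eq_1
  have := @CA.O3.mapW.eq_def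
  have := @CA.O3.mapW.congr_simp
  have := @CA.O3.YL.eq_1
  have := @CA.O3.YL.eq_def
  have := @CA.O3.YL.congr_simp
  have := @CA.O3.Gam.eq_1
  have := @CA.O3.Gam.eq_def
  have := @CA.O3.Gam.congr_simp
  have := @CA.O3.xW.eq_1
  have := @CA.O3.xW.eq_def
  have := @CA.O3.xW.congr_simp
  have := @CA.O3.Yw.eq_1
  have := @CA.O3.Yw.eq_def
  have := @CA.O3.Yw.congr_simp
  have := @CA.O3.TL.eq_1
  have := @CA.O3.TL.eq_def
  have := @CA.O3.TL.congr_simp
  have := @CA.O3.yy.eq_1
  have := @CA.O3.yy.eq_def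
  have := @CA.O3.yy.congr_simp
  have := @CA.O3.sigP.eq_1
  have := @CA.O3.sigP.eq_def
  have := @CA.O3.sigP.congr_simp
  have := @CA.O3.C8.eq_1
  have := @CA.O3.C8.eq_def
  have := @CA.O3.C8.congr_simp
  have := @CA.O3.CT.eq_1
  have := @CA.O3.CT.eq_def
  have := @CA.O3.CT.congr_simp
  have := @CA.O3.pr.eq_1
  have := @CA.O3.pr.eq_def
  have := @CA.O3.pr.congr_simp
  have := @CA.O3.CS.eq_1
  have := @CA.O3.CS.eq_def
  have := @CA.O3.CS.congr_simp
  have := @CA.O3.tau.eq_1
  have := @CA.O3.tau.eq_def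
  have := @CA.O3.tau.congr_simp
  have := @CA.O3.sig.eq_1
  have := @CA.O3.sig.eq_def
  have := @CA.O3.sig.congr_simp
  have := @CA.O3.tauP.eq_1
  have := @CA.O3.tauP.eq_def
  have := @CA.O3.tauP.congr_simp
  trivial

end CA.O3
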