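/-
The seven classes of subgroups of order three of the orthogonal group Omega(7, 3).
-/
import Cfsg.Agent.O3.D4Cls

set_option autoImplicit false

namespace CA.O3
open Cfsg Cfsg.Agent.Orth QuadraticMap Module
open CA.Chev (encP decP)

section transfer
variable {G P : Type*} [Group G] [Group P]

lemma map_conj_zpowers (g x : G) :
    (Subgroup.zpowers x).map (MulAut.conj g).toMonoidHom = Subgroup.zpowers (g * x * g⁻¹) := by
  rw [MonoidHom.map_zpowers]; rfl

lemma exists_gen_three {X : Subgroup G} (h : Nat.card X = 3) : ∃ x, x ^ 3 = 1 ∧ x ≠ 1 ∧ X = Subgroup.zpowers x := by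
  haveI : Fact (Nat.Prime 3) := ⟨Nat.prime_three⟩
  haveI := isCyclic_of_prime_card h
  obtain ⟨x, hx⟩ := (Subgroup.isCyclic_iff_exists_zpowers_eq_top X).1 inferInstance
  have h1 : orderOf x = 3 := by rw [← Nat.card_zpowers, hx, h]
  exact ⟨x, h1 ▸ pow_orderOf_eq_one x, fun h2 => by simp [h2] at h1, hx.symm⟩

lemma card_zpowers_three {x : G} (h : x ^ 3 = 1) (h1 : x ≠ 1) : Nat.card (Subgroup.zpowers x) = 3 := by
  haveI : Fact (Nat.Prime 3) := ⟨Nat.prime_three⟩
  rw [Nat.card_zpowers, orderOf_eq_prime h h1]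

lemma eq_or_inv_of_zpowers {x y : G} (hy : y ^ 3 = 1) (hx : x ≠ 1) (h : x ∈ Subgroup.zpowers y) :
    x = y ∨ x = y⁻¹ := by
  obtain ⟨k, rfl⟩ := h
  have h1 : y ^ k = y ^ (k % 3) := zpow_eq_zpow_emod' k hy
  have h2 : k % 3 = 0 ∨ k % 3 = 1 ∨ k % 3 = 2 := by omega
  simp only [h1] at hx ⊢
  rcases h2 with h2 | h2 | h2 <;> rw [h2] at hx ⊢
  · simp at hx
  · simp
  · right
    rw [eq_inv_iff_mul_eq_one, ← hy, ← zpow_add_one]; exact zpow_natCast y 3

/-- from classes of elements to classes of subgroups -/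
theorem subgroup_classes {n : ℕ} {z : ℕ → P} (h3 : ∀ k < n, z k ^ 3 = 1) (h1 : ∀ k < n, z k ≠ 1)
    (H1 : ∀ x, x ^ 3 = 1 → x ≠ 1 → ∃ k < n, IsConj x (z k))
    (H2 : ∀ i < n, ∀ j < n, IsConj (z i) (z j) ∨ IsConj (z i) (z j)⁻¹ → i = j) (e : P ≃* G) :
    ∃ Y : Fin n → Subgroup G, (∀ i, Nat.card (Y i) = 3) ∧
      (∀ i j, (∃ g : G, (Y i).map (MulAut.conj g).toMonoidHom = Y j) → i = j) ∧
      (∀ X : Subgroup G, Nat.card X = 3 → ∃ i, ∃ g : G, X.map (MulAut.conj g).toMonoidHom = Y i) := by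
  refine ⟨fun i => Subgroup.zpowers (e (z i)), fun i => card_zpowers_three (by rw [← map_pow, h3 i i.2, map_one])
    (by simpa using h1 i i.2), fun i j ⟨g, hg⟩ => Fin.ext (H2 i i.2 j j.2 ?_), fun X hX => ?_⟩
  · beta_reduce at hg
    rw [map_conj_zpowers] at hg
    obtain ⟨g, rfl⟩ := e.surjective g
    have := eq_or_inv_of_zpowers (x := e g * e (z i) * (e g)⁻¹) (y := e (z j)) (by rw [← map_pow, h3 j j.2, map_one])
      (by simpa using h1 i i.2) (hg ▸ Subgroup.mem_zpowers _)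
    simp only [← map_inv, ← map_mul, e.apply_eq_iff_eq] at this
    exact this.imp (fun h => isConj_iff.2 ⟨g, h⟩) fun h => isConj_iff.2 ⟨g, h⟩
  · obtain ⟨x, hx, hx1, rfl⟩ := exists_gen_three hX
    obtain ⟨x, rfl⟩ := e.surjective x
    obtain ⟨k, hk, h⟩ := H1 x (by rwa [← map_pow, map_eq_one_iff _ e.injective] at hx) (by simpa using hx1)
    obtain ⟨g, hg⟩ := isConj_iff.1 h
    exact ⟨⟨k, hk⟩, e g, by rw [map_conj_zpowers, ← map_inv, ← map_mul, ← map_mul, hg]⟩

end transfer

section emb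
variable {F V W : Type*} [Field F] [AddCommGroup V] [Module F V] [AddCommGroup W] [Module F W]
  {Q : QuadraticForm F V} {Q' : QuadraticForm F W} (j : V →ₗ[F] W) (π : W →ₗ[F] V) (h1 : ∀ v, π (j v) = v)
  (h2 : ∀ v k, π k = 0 → Q' (j v + k) = Q v + Q' k)

include h1 h2 in
lemma Q_ext (g : OG Q) (x : W) : Q' (x - j (π x) + j (g.1 (π x))) = Q' x := by
  have h3 : π (x - j (π x)) = 0 := by rw [map_sub, h1, sub_self]
  rw [add_comm, h2 _ _ h3, OG.map_Q, ← h2 _ _ h3]; congr 1; abel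

/-- extension of isometries by the identity on the complement -/
def extOG : OG Q →* OG Q' where
  toFun g := mkOG (LinearMap.id - j ∘ₗ π + j ∘ₗ g.1.toLinearMap ∘ₗ π)
    (LinearMap.id - j ∘ₗ π + j ∘ₗ (g⁻¹).1.toLinearMap ∘ₗ π)
    (fun x => by simp [h1]) (fun x => by simp [h1]) (Q_ext j π h1 h2 g)
  map_one' := OG.ext fun x => by simp
  map_mul' g k := OG.ext fun x => by simp [OG.mul_apply, h1]

lemma extOG_apply (g : OG Q) (x : W) : (extOG j π h1 h2 g).1 x = x - j (π x) + j (g.1 (π x)) := rfl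

include h2 in
lemma Q_j (v : V) : Q' (j v) = Q v := by simpa using h2 v 0 (map_zero _)

include h1 h2 in
lemma polar_j (x : W) (v : V) : polar Q' x (j v) = polar Q (π x) v := by
  have h3 : π (x - j (π x)) = 0 := by rw [map_sub, h1, sub_self]
  have h4 := h2 (π x + v) _ h3
  have h5 := h2 (π x) _ h3
  rw [show j (π x) + (x - j (π x)) = x by abel] at h5
  rw [show j (π x + v) + (x - j (π x)) = x + j v by rw [map_add]; abel] at h4
  simp only [polar, h4, h5, Q_j j π h2]; ring

lemma extOG_refl (w : V) : extOG j π h1 h2 (refl Q w) = refl Q' (j w) := OG.ext fun x => by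
  rw [extOG_apply, refl_apply, refl_apply, polar_j j π h1 h2, Q_j j π h2, map_sub, map_smul]; abel

lemma extOG_sg (u v : V) : extOG j π h1 h2 (sg Q u v) = sg Q' (j u) (j v) := by
  have h3 : polar Q' (j u) (j v) = polar Q u v := by rw [polar_j j π h1 h2, h1]
  unfold sg
  by_cases h : Q u = 0 ∧ polar Q u v = 0
  · rw [dif_pos h, dif_pos (by rwa [Q_j j π h2, h3])]
    refine OG.ext fun x => ?_
    simp only [extOG_apply, sieg_apply, polar_j j π h1 h2, Q_j j π h2, map_sub, map_smul, map_add]; abel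
  · rw [dif_neg h, dif_neg (by rwa [Q_j j π h2, h3]), map_one]

lemma extOG_injective : Function.Injective (extOG j π h1 h2) := fun g k h => OG.ext fun v => by
  have := congrArg (fun g : OG Q' => π (g.1 (j v))) h
  simpa [extOG_apply, h1] using this

end emb

/-- the seven-dimensional space -/
abbrev V7 : Type := Unit ⊕ (Fin 3 ⊕ Fin 3) → ZMod 3

/-- the form -/
noncomputable def Q7 : QuadraticForm (ZMod 3) V7 := (hsum 3 QuadraticMap.sq).comp (oddEquiv (ZMod 3) 3).toLinearMap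

lemma Q7_apply (x : V7) : Q7 x = quadFormOdd 3 (ZMod 3) x := hsum_oddEquiv 3 x

lemma Q7_eq (x : V7) : Q7 x = x (.inl ()) ^ 2 + (x (.inr (.inl 0)) * x (.inr (.inr 0)) +
    x (.inr (.inl 1)) * x (.inr (.inr 1)) + x (.inr (.inl 2)) * x (.inr (.inr 2))) := by
  rw [Q7_apply, quadFormOdd, Fin.sum_univ_three]

lemma nondeg7 : Nondeg Q7 := ((nondeg_sq two_ne).hsum 3).congr (oddEquiv (ZMod 3) 3) fun _ => rfl

lemma hp7 (i : Fin 3) : HP Q7 (Pi.single (.inr (.inl i)) 1) (Pi.single (.inr (.inr i)) 1) := by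
  refine ⟨?_, ?_, ?_⟩ <;> simp only [polar, Q7_eq] <;> revert i <;> decide

lemma comm7 : commutator (OG Q7) = EE Q7 :=
  commutator_eq_EE nondeg7 (by simp) (hp7 0) (hp7 1) (by simp only [polar, Q7_eq]; decide)
    (by simp only [polar, Q7_eq]; decide)

/-- index map -/
def ix7 : Fin 4 ⊕ Fin 4 → Unit ⊕ (Fin 3 ⊕ Fin 3) :=
  Sum.elim ![.inr (.inl 0), .inr (.inl 1), .inr (.inl 2), .inl ()] ![.inr (.inr 0), .inr (.inr 1), .inr (.inr 2), .inl ()]

/-- the embedding -/
def j7 : V7 →ₗ[ZMod 3] V8 := LinearMap.funLeft _ _ ix7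

/-- the projection -/
def p7 : V8 →ₗ[ZMod 3] V7 where
  toFun x := Sum.elim (fun _ => -(x (.inl 3) + x (.inr 3))) (Sum.elim (fun i => x (.inl i.castSucc))
    fun i => x (.inr i.castSucc))
  map_add' x y := by funext c; rcases c with c | c | c <;> simp; ring
  map_smul' a x := by funext c; rcases c with c | c | c <;> simp; ring

lemma p7_j7 (v : V7) : p7 (j7 v) = v := by
  funext c
  rcases c with c | c | c
  · change -(v (.inl ()) + v (.inl ())) = v (.inl ())
    linear_combination (-v (.inl ())) * three_eq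
  · fin_cases c <;> rfl
  · fin_cases c <;> rfl

lemma Q_j7 (v : V7) (k : V8) (h : p7 k = 0) : Q8 (j7 v + k) = Q7 v + Q8 k := by
  have h0 : k (.inr 3) = - k (.inl 3) := by
    have : -(k (.inl 3) + k (.inr 3)) = 0 := congrFun h (.inl ())
    linear_combination -this
  have h1 : ∀ i : Fin 3, k (.inl i.castSucc) = 0 := fun i => congrFun h (.inr (.inl i))
  have h2 : ∀ i : Fin 3, k (.inr i.castSucc) = 0 := fun i => congrFun h (.inr (.inr i))
  have a0 : k (.inl 0) = 0 := h1 0
  have a1 : k (.inl 1) = 0 := h1 1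
  have a2 : k (.inl 2) = 0 := h1 2
  have b0 : k (.inr 0) = 0 := h2 0
  have b1 : k (.inr 1) = 0 := h2 1
  have b2 : k (.inr 2) = 0 := h2 2
  simp only [Q8_eq, Q7_eq, Pi.add_apply, h0, a0, a1, a2, b0, b1, b2, j7, LinearMap.funLeft_apply, ix7, Sum.elim_inl,
    Sum.elim_inr, Matrix.cons_val_zero, Matrix.cons_val_one, Matrix.cons_val]
  ring

/-- the embedding of the seven-dimensional space -/
noncomputable def emb7 : Emb Q7 where
  j := j7
  ι := extOG j7 p7 p7_j7 Q_j7
  inj := extOG_injective _ _ _ _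
  jQ := Q_j j7 p7 Q_j7
  ι_refl := extOG_refl _ _ _ _
  ι_sg := extOG_sg _ _ _ _
  ok w := Nat.beq (dg w 3) (dg w 7)
  tv w := p7 (toV w)
  j_tv w hw := by
    have h : toV w (.inr 3) = toV w (.inl 3) := congrArg Nat.cast (Nat.eq_of_beq_eq_true hw).symm
    have h' : -(toV w (.inl 3) + toV w (.inr 3)) = toV w (.inl 3) := by
      rw [h]; linear_combination (-toV w (.inl 3)) * three_eq
    funext c
    rcases c with c | c <;> fin_cases c
    all_goals first | rfl | exact h' | exact h'.trans h.symm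

/-- representatives -/
def R7L : List (List ℕ × List ℕ × List ℕ) := [([0], [257, 258, 1028, 1032], []), ([1], [257, 258, 1028], []), ([2],
    [257, 258, 1032], []), ([1, 0], [257, 258, 1028, 4112, 1032, 16448, 4128], []), ([1, 0], [257, 258, 1028, 4112,
    1032, 16448, 4128], [257]), ([1, 1], [257, 258, 1028, 4112, 1032, 16448], []), ([1, 2], [257, 258, 1028, 4112,
    1032, 4128], [])]

/-- conjugacy certificates -/
def C7 : List (List ℕ × List ℕ × List (ℕ × List (ℕ × ℕ))) := [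
  ([0], [257, 258, 1028, 1032], [(0, []), (0, [(18512, 289), (38041, 26724), (4392, 6424)]), (0, [(5664, 22629),
    (39077, 4134), (37268, 41610)]), (0, [(38314, 6698), (1545, 518), (38288, 26200)])]),
  ([1], [257, 258, 1028], [(1, []), (1, [(21056, 22612), (39572, 9482), (5384, 6404)]), (1, [(39572, 42152), (2568,
    6160), (26194, 33953), (2596, 39332), (38568, 43689)]), (1, [(27236, 534), (26708, 26986)])]),
  ([2], [257, 258, 1032], [(2, []), (2, [(32928, 42644), (33424, 2597), (41089, 41600), (1032, 2324)]), (2, [(4112,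
    26980), (18504, 8464), (17476, 43656), (42666, 23126)]), (2, [(9732, 20800), (5652, 2052)])]),
  ([1, 0], [257, 258, 1028, 4112, 1032, 16448, 4128], [(3, []), (4, []), (3, [(42132, 33444), (6421, 22881), (9514,
    513)]), (4, [(26725, 43138), (33424, 16464), (42138, 39078)])]),
  ([0, 1], [257, 258, 1028, 1032, 4112, 4128, 16448], [(3, [(33432, 34976), (8480, 41089), (8212, 24918)]), (4,
    [(1061, 17984), (20565, 1576)]), (3, [(6152, 18000), (17000, 21570), (23130, 16486)]), (4, [(16480, 32930),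
    (25178, 41618), (26698, 41380)])]),
  ([1, 1], [257, 258, 1028, 4112, 1032, 16448], [(5, []), (5, [(34198, 16466), (1570, 21848), (10533, 5398)]), (5,
    [(38308, 32920), (1284, 2581), (2324, 2069)]), (5, [(24930, 4372), (23126, 41384)])]),
  ([1, 2], [257, 258, 1028, 4112, 1032, 4128], [(6, []), (6, [(27236, 43161), (22118, 1576), (513, 4128)]), (6, [(294,
    1320), (8746, 8709)]), (6, [(37524, 34180), (9736, 1064)])]),
  ([2, 1], [257, 258, 1032, 1028, 4128, 4112], [(6, [(6404, 9252), (1288, 19042), (39557, 25670)]), (6, [(16704,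
    1029), (34436, 23146), (25173, 35217)]), (6, [(43684, 5377), (5393, 10536)]), (6, [(10272, 10261), (5152,
    521)])]),
  ([2, 2], [257, 258, 1032, 1028, 4128, 20560], [(5, [(4113, 41604), (25189, 9513), (2054, 8481)]), (5, [(25156,
    38550), (41092, 33152), (37286, 24897)]), (5, [(22881, 35462), (34961, 43414), (2324, 9749)]), (5, [(43654, 4116),
    (5638, 2329), (1050, 24673)])])]

/-- fusion into the eight-dimensional group -/
def C78 : List (ℕ × List (ℕ × ℕ)) := [(0, [(34081, 33408), (16802, 32897), (9554, 35494), (17698, 2721), (33414,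
    18025), (6785, 43013)]), (5, [(33098, 43078), (43338, 41280), (42049, 35208), (21537, 35090)]), (2, [(32896,
    16452), (36993, 33864), (25670, 4418), (41554, 16545)]), (9, [(21568, 35330), (37512, 2185), (26884, 27241),
    (42646, 39172)]), (10, [(5189, 38404), (16516, 43653), (22118, 35224)]), (12, [(8706, 25225), (25954, 16778),
    (22545, 18850), (6436, 20994), (33157, 2133)]), (11, [(37248, 1418), (38920, 21016), (4118, 2642), (4362, 43266),
    (32840, 35401)])]

/-- the word of a representative -/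
def R7 (k : ℕ) : List Op :=
  rW (R7L.getD k ([], [], [])).2.2 ++ blkW (R7L.getD k ([], [], [])).1 (R7L.getD k ([], [], [])).2.1 ++ rW (R7L.getD k ([], [], [])).2.2.reverse

/-- the representatives -/
noncomputable def z7 (k : ℕ) : OG Q7 := rp Q7 ((R7L.getD k ([], [], [])).2.2.map emb7.tv) *
  blk Q7 (ct (R7L.getD k ([], [], [])).1) ((R7L.getD k ([], [], [])).2.1.map emb7.tv) * (rp Q7 ((R7L.getD k ([], [], [])).2.2.map emb7.tv))⁻¹

lemma chk_R7 : ∀ k < 7, (R7L.getD k ([], [], [])).2.2.all emb7.ok = true ∧ (R7L.getD k ([], [], [])).2.1.all emb7.ok = true := by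
  decide +kernel

lemma chk_C7 : C7.all (emb7.rowOK 257 513 7 R7) = true := by decide +kernel

lemma chk_C78 : ∀ k < 7, (C78.getD k (0, [])).1 < 13 ∧
    emb8.coOK (R7 k) (xW (Yw (C78.getD k (0, [])).1)) (C78.getD k (0, [])).2 = true := by decide +kernel

lemma chk_inj : ∀ i < 7, ∀ j < 7, (C78.getD i (0, [])).1 = (C78.getD j (0, [])).1 → i = j := by decide +kernel

lemma ι_z7 {k : ℕ} (hk : k < 7) : emb7.ι (z7 k) = ogL (R7 k) := by
  obtain ⟨h1, h2⟩ := chk_R7 k hk
  rw [z7, R7, ogL_append, ogL_append, map_mul, map_mul, ← Emb.rp_reverse, ← List.map_reverse, emb7.ι_rp h1,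
    emb7.ι_rp (by simpa using h1), emb7.ι_blk, emb7.map_j_tv h2, ogL_blkW]

lemma z7_mem (k : ℕ) : z7 k ∈ commutator (OG Q7) :=
  Subgroup.Normal.conj_mem inferInstance _ (comm7 ▸ blk_mem_EE _ _) _

lemma CO_z7 {k : ℕ} (hk : k < 7) : CO (emb7.ι (z7 k)) (psi (wS (Yw (C78.getD k (0, [])).1))) :=
  emb8.CO_of_coOK (chk_C78 k hk).2 (ι_z7 hk) (psi_wS _)

lemma z7_cube {k : ℕ} (hk : k < 7) : z7 k ^ 3 = 1 := by
  obtain ⟨g, -, hg⟩ := (CO_z7 hk).symm
  refine emb7.inj ?_
  rw [map_pow, ← hg, conj_pow, psi_cube (chk_C78 k hk).1]; simp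

lemma z7_ne {k : ℕ} (hk : k < 7) : z7 k ≠ 1 := fun h => by
  obtain ⟨g, -, hg⟩ := CO_z7 hk
  rw [h, map_one, psi_wS] at hg
  exact ne_one_of_neW (chk_ne _ (chk_C78 k hk).1) (by simpa using hg.symm)

lemma eq_of_CO_z7 {i j : ℕ} (hi : i < 7) (hj : j < 7) (h : CO (z7 i) (z7 j) ∨ CO (z7 i) (z7 j)⁻¹) : i = j := by
  refine chk_inj i hi j hj (eq_of_isConj_yy (chk_C78 i hi).1 (chk_C78 j hj).1 (h.imp (fun h => ?_) fun h => ?_))
  · exact isConj_of_CO ((CO_z7 hi).symm.trans ((emb7.CO_map h).trans (CO_z7 hj)))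
  · have := emb7.CO_map h
    rw [map_inv] at this
    have := (CO_z7 hi).symm.trans (this.trans (CO_z7 hj).inv)
    rw [← map_inv] at this
    simpa only [map_inv, yy] using isConj_of_CO this

lemma no_neg {l : List V7} {u : V7} (h : OrthL Q7 (u :: l)) (hq : l.map Q7 = [1, -1, 1, -1, 1, -1]) : Q7 u ≠ -1 := by
  have h1 : ([257, 513, 1028, 2052, 4112, 8208] : List ℕ).all emb7.ok = true := by decide +kernel
  obtain ⟨-, h2, h3⟩ := orthL_cons.1 h
  obtain ⟨g, hg⟩ := witt two_ne h3 (emb7.orthL h1 (by decide +kernel)) (by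
    rw [hq, List.map_map, List.map_congr_left (f := ⇑Q7 ∘ emb7.tv) (g := fun w => (QN w : ZMod 3))
      fun w hw => emb7.Q_tv (List.all_eq_true.1 h1 w hw)]
    decide +kernel)
  have h4 : ∀ w ∈ ([257, 513, 1028, 2052, 4112, 8208] : List ℕ), polar Q8 (j7 (g.1 u)) (toV w) = 0 := fun w hw => by
    rw [← emb7.j_tv w (List.all_eq_true.1 h1 w hw)]
    refine (emb7.jpolar _ _).trans ?_
    have := List.mem_map_of_mem (f := emb7.tv) hw
    rw [← hg] at this
    obtain ⟨b, hb, e⟩ := List.mem_map.1 this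
    rw [← e, OG.map_polar, h2 b hb]
  rw [← OG.map_Q g, Q7_eq]
  generalize g.1 u = v at h4
  have e1 : toV 257 = Sum.elim ![1, 0, 0, 0] ![1, 0, 0, 0] := by decide +kernel
  have e2 : toV 513 = Sum.elim ![1, 0, 0, 0] ![-1, 0, 0, 0] := by decide +kernel
  have e3 : toV 1028 = Sum.elim ![0, 1, 0, 0] ![0, 1, 0, 0] := by decide +kernel
  have e4 : toV 2052 = Sum.elim ![0, 1, 0, 0] ![0, -1, 0, 0] := by decide +kernel
  have e5 : toV 4112 = Sum.elim ![0, 0, 1, 0] ![0, 0, 1, 0] := by decide +kernel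
  have e6 : toV 8208 = Sum.elim ![0, 0, 1, 0] ![0, 0, -1, 0] := by decide +kernel
  simp only [List.mem_cons, List.not_mem_nil, or_false, forall_eq_or_imp, forall_eq, e1, e2, e3, e4, e5, e6, polar_Q8,
    j7, LinearMap.funLeft_apply, ix7, Sum.elim_inl, Sum.elim_inr, Matrix.cons_val_zero, Matrix.cons_val_one,
    Matrix.cons_val] at h4
  have k : ∀ a b : ZMod 3, a + b = 0 → -a + b = 0 → a * b = 0 := by decide
  have k' : ∀ a : ZMod 3, a ^ 2 ≠ -1 := by decide
  obtain ⟨a1, a2, a3, a4, a5, a6⟩ := h4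
  rw [k _ _ (by linear_combination a1) (by linear_combination a2), k _ _ (by linear_combination a3)
    (by linear_combination a4), k _ _ (by linear_combination a5) (by linear_combination a6)]
  simpa using k' _

lemma exists_row7 {t : List (ZMod 3)} (ht : (pat t).length ≤ 7) :
    t = [] ∨ t = [-1, 0] ∨ t = [0, -1] ∨ ∃ c ∈ C7, ct c.1 = t := by
  have h3 : ∀ ε t, (pat t).length + 3 ≤ (pat (ε :: t)).length := fun ε t => by
    simp only [pat]; split_ifs <;> simp
  match t with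
  | [] => exact Or.inl rfl
  | [a] => right; revert a; decide +kernel
  | [a, b] => right; revert a b; decide +kernel
  | a :: b :: c :: t => have := h3 a (b :: c :: t); have := h3 b (c :: t); have := h3 c t; omega

theorem exists_CO7 {x : OG Q7} (hx : x ^ 3 = 1) (h1 : x ≠ 1) : ∃ k < 7, CO x (z7 k) := by
  obtain ⟨t, l, h2, h3, rfl⟩ := exists_blk nondeg7 hx
  have h4 := h2.length_le two_ne
  rcases exists_row7 (t := t) (by simpa [← h3] using h4) with rfl | rfl | rfl | ⟨c, hc, rfl⟩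
  · exact absurd rfl h1
  · rw [show pat [-1, 0] = [1, -1, -1, 1, -1, 1, -1] by decide] at h3
    simp only [List.map_eq_cons_iff, List.map_eq_nil_iff] at h3
    obtain ⟨a1, _, rfl, e1, a2, _, rfl, e2, a3, _, rfl, e3, a4, _, rfl, e4, a5, _, rfl, e5, a6, _, rfl, e6, a7, _,
      rfl, e7, rfl⟩ := h3
    exact absurd e3 (no_neg (l := [a1, a2, a4, a5, a6, a7]) (h2.perm (List.perm_middle (l₁ := [a1, a2])))
      (by simp [*]))
  · rw [show pat [0, -1] = [1, -1, 1, -1, 1, -1, -1] by decide] at h3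
    simp only [List.map_eq_cons_iff, List.map_eq_nil_iff] at h3
    obtain ⟨a1, _, rfl, e1, a2, _, rfl, e2, a3, _, rfl, e3, a4, _, rfl, e4, a5, _, rfl, e5, a6, _, rfl, e6, a7, _,
      rfl, e7, rfl⟩ := h3
    exact absurd e7 (no_neg (l := [a1, a2, a3, a4, a5, a6])
      (h2.perm (List.perm_middle (l₁ := [a1, a2, a3, a4, a5, a6]) (l₂ := []))) (by simp [*]))
  · exact emb7.exists_CO nondeg7 comm7 (by decide +kernel) (by decide +kernel) rfl rfl (fun k hk => ι_z7 hk)
      (List.all_eq_true.1 chk_C7 c hc) h2 h3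

lemma center7 : Subgroup.center (commutator (OG Q7)) = ⊥ := by
  have h1 : negOne Q7 ∉ commutator (OG Q7) := fun h => by
    have h2 := Abelianization.commutator_subset_ker (dickson nondeg7 (by simp)) h
    rw [MonoidHom.mem_ker, dickson_negOne _ _ two_ne] at h2
    simp only [finrank_fintype_fun_eq_card, Fintype.card_sum, Fintype.card_unique, Fintype.card_fin] at h2
    exact absurd h2 (by decide)
  have := card_center_commutator nondeg7 (by simp) (hp7 0) comm7
  rw [if_neg (fun h => h1 h.2)] at this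
  exact Subgroup.eq_bot_of_card_eq _ this

theorem classes7 {G : Type*} [Group G] (e : commutator (OG Q7) ≃* G) :
    ∃ Y : Fin 7 → Subgroup G, (∀ i, Nat.card (Y i) = 3) ∧
      (∀ i j, (∃ g : G, (Y i).map (MulAut.conj g).toMonoidHom = Y j) → i = j) ∧
      (∀ X : Subgroup G, Nat.card X = 3 → ∃ i, ∃ g : G, X.map (MulAut.conj g).toMonoidHom = Y i) := by
  refine subgroup_classes (z := fun k => ⟨z7 k, z7_mem k⟩) (fun k hk => Subtype.ext (z7_cube hk))
    (fun k hk h => z7_ne hk (congrArg Subtype.val h)) (fun x hx h1 => ?_) (fun i hi j hj h => ?_) e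
  · obtain ⟨k, hk, g, hg, h⟩ := exists_CO7 (x := x.1) (congrArg Subtype.val hx) fun h => h1 (Subtype.ext h)
    exact ⟨k, hk, isConj_iff.2 ⟨⟨g, hg⟩, Subtype.ext h⟩⟩
  · refine eq_of_CO_z7 hi hj (h.imp (fun h => ?_) fun h => ?_) <;> obtain ⟨g, hg⟩ := isConj_iff.1 h <;>
      exact ⟨g.1, g.2, congrArg Subtype.val hg⟩

/-- the isomorphism with the group of the statements -/
noncomputable def equiv7 : commutator (OG Q7) ≃* POmega (ZMod 3) (quadFormOdd 3 (ZMod 3)) :=
  ((QuotientGroup.quotientBot.symm.trans (QuotientGroup.quotientMulEquivOfEq center7.symm))).trans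
    (pomegaEquiv (LinearEquiv.refl _ _) Q7_apply).symm

theorem realizeEqns_O3O7Cls : True := by
  have := @CA.O3.emb7.eq_1
  have := @CA.O3.emb7.eq_def
  have := @CA.O3.emb7.congr_simp
  have := @CA.O3.R7.eq_1
  have := @CA.O3.R7.eq_def
  have := @CA.O3.R7.congr_simp
  have := @CA.O3.C7.eq_1
  have := @CA.O3.C7.eq_def
  have := @CA.O3.C7.congr_simp
  have := @CA.O3.z7.eq_1
  have := @CA.O3.z7.eq_def
  have := @CA.O3.z7.congr_simp
  have := @CA.O3.Q7.eq_1
  have := @CA.O3.Q7.eq_def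
  have := @CA.O3.Q7.congr_simp
  have := @CA.O3.ix7.eq_1
  have := @CA.O3.ix7.eq_def
  have := @CA.O3.ix7.congr_simp
  have := @CA.O3.C78.eq_1
  have := @CA.O3.C78.eq_def
  have := @CA.O3.C78.congr_simp
  have := @CA.O3.R7L.eq_1
  have := @CA.O3.R7L.eq_def
  have := @CA.O3.R7L.congr_simp
  have := @CA.O3.extOG.eq_1.{0,0,0}
  have := @CA.O3.extOG.eq_def.{0,0,0}
  have := @CA.O3.extOG.congr_simp.{0,0,0}
  have := @CA.O3.equiv7.eq_1
  have := @CA.O3.equiv7.eq_def
  have := @CA.O3.equiv7.congr_simp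
  have := @CA.O3.p7.eq_1
  have := @CA.O3.p7.eq_def
  have := @CA.O3.p7.congr_simp
  have := @CA.O3.j7.eq_1
  have := @CA.O3.j7.eq_def
  have := @CA.O3.j7.congr_simp
  have := @CA.O3.V7.eq_1
  have := @CA.O3.V7.eq_def
  have := @CA.O3.V7.congr_simp
  trivial

end CA.O3
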