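/-
The automorphisms of the Chevalley group D4 over the field with three elements.
-/
import Cfsg.Agent.O3.O7Cls
import Cfsg.Agent.O3.RgdAut
import Cfsg.Agent.FG.CompLayer
import Cfsg.Agent.S1082

set_option autoImplicit false

namespace CA.O3
open Cfsg Cfsg.Lie Cfsg.Lie.ChevalleyDatum
open CA.Chev hiding refl refl_inv refl_mul_self

/-- a copy of the group -/
def Gm : Type := Gam

noncomputable instance groupGm : Group Gm := inferInstanceAs (Group Gam)

/-- the Steinberg system -/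
noncomputable def SG : StSys chevD4 (ZMod 3) Gm := stG chevD4 (ZMod 3)

lemma SG_top : SG.XS (fun _ => True) = ⊤ := stG_top

lemma center_Gm : Subgroup.center Gm = ⊥ := center_group coxD4

/-- triality -/
noncomputable def tm : MulAut Gm := tau

/-- the graph involution -/
noncomputable def sm2 : MulAut Gm := sig

/-- the Coxeter matrix -/
def cxM : CoxeterMatrix (Nd chevD4) := coxeterD4

lemma cxF : CoxFor chevD4 cxM := coxD4

/-- the root group datum -/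
noncomputable abbrev RG : CA.RGD.Sys (rootSys cxF) Gm := SG.rgd cxF

lemma RG_top : RG.G = ⊤ := (SG.rgd_G cxF).trans SG_top

instance finiteGm : Finite Gm := inferInstanceAs (Finite Gam)

/-- simple roots -/
def sm (i : Fin 4) : Rt chevD4 := sim (D := chevD4) i

/-- signs -/
def su (b : Bool) : (ZMod 3)ˣ := if b then -1 else 1

lemma su_xor (a b : Bool) : su (xor a b) = su a * su b := by revert a b; decide
lemma su_inv (a : Bool) : (su a)⁻¹ = su a := by revert a; decide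
lemma su_inj {a b : Bool} (h : (su a : ZMod 3) = su b) : a = b := by revert a b; decide
lemma exists_su {t : ZMod 3} (h : t ≠ 0) : ∃ a, t = su a := by revert t; decide
lemma exists_su' (t : (ZMod 3)ˣ) : ∃ a, t = su a := by revert t; decide

/-- the data of an automorphism -/
structure Dt where
  /-- the permutation of the nodes -/
  p : Fin 4 → Fin 4
  /-- the signs -/
  e : Fin 4 → Bool

instance : Mul Dt := ⟨fun a b => ⟨fun i => a.p (b.p i), fun i => xor (a.e (b.p i)) (b.e i)⟩⟩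

/-- inner data -/
def Dt.inn (a : Dt) : Prop := (∀ i, a.p i = i) ∧ a.e 0 = a.e 2 ∧ a.e 0 = a.e 3

instance (a : Dt) : Decidable a.inn := inferInstanceAs (Decidable (_ ∧ _))

/-- an automorphism with given data -/
structure Rl (β : MulAut Gm) (a : Dt) : Prop where
  U : Onto β RG.U RG.U
  V : Onto β RG.V RG.V
  pos : ∀ i t, β (SG.x (sm i) t) = SG.x (sm (a.p i)) (su (a.e i) * t)
  neg : ∀ i t, β (SG.x (ng (sm i)) t) = SG.x (ng (sm (a.p i))) (su (a.e i) * t)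

lemma Rl.mul {β γ : MulAut Gm} {a b : Dt} (h : Rl β a) (h' : Rl γ b) : Rl (β * γ) (a * b) where
  U := h.U.mul h'.U
  V := h.V.mul h'.V
  pos i t := by rw [MulAut.mul_apply, h'.pos, h.pos, ← mul_assoc, ← Units.val_mul, ← su_xor]; rfl
  neg i t := by rw [MulAut.mul_apply, h'.neg, h.neg, ← mul_assoc, ← Units.val_mul, ← su_xor]; rfl

lemma Rl.unique {β γ : MulAut Gm} {a : Dt} (h : Rl β a) (h' : Rl γ a) : β = γ := by
  have := SG.XS_le_of_simple (L := β.toMonoidHom.eqLocus γ.toMonoidHom) (fun i t => (h.pos i t).trans (h'.pos i t).symm)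
    (fun i t => (h.neg i t).trans (h'.neg i t).symm) fun _ => True
  rw [SG_top] at this
  exact MulEquiv.ext fun x => this (Subgroup.mem_top x)

lemma onto_of_finite {Γ : Type*} [Group Γ] [Finite Γ] {β : MulAut Γ} {K : Subgroup Γ} (h : K ≤ K.comap β.toMonoidHom) :
    Onto β K K := fun x => by
  have h1 : K.map β.toMonoidHom = K := Subgroup.eq_of_le_of_card_ge (Subgroup.map_le_iff_le_comap.2 h)
    (Subgroup.card_map_of_injective β.injective).ge
  refine ⟨fun hx => ?_, fun hx => h hx⟩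
  rw [← h1] at hx
  obtain ⟨y, hy, e⟩ := hx
  rwa [← β.injective e]

lemma real_of_root {β : MulAut Gm} {ρ : Rt chevD4 → Rt chevD4} {γ : Rt chevD4 → ZMod 3}
    (h : ∀ r t, β (SG.x r t) = SG.x (ρ r) (γ r * t)) (hp : ∀ r, IsPos (ρ r) ↔ IsPos r) {a : Dt}
    (h1 : ∀ i, ρ (sm i) = sm (a.p i) ∧ ρ (ng (sm i)) = ng (sm (a.p i)) ∧ γ (sm i) = su (a.e i) ∧
      γ (ng (sm i)) = su (a.e i)) : Rl β a where
  U := onto_of_finite (by
    rw [SG.rgd_U]
    exact SG.XS_le fun r hr t => Subgroup.mem_comap.2 (by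
      have := SG.x_mem_XS ((hp r).2 hr) (γ r * t); rwa [← h] at this))
  V := onto_of_finite (by
    rw [SG.rgd_V]
    exact SG.XS_le fun r hr t => Subgroup.mem_comap.2 (by
      have := SG.x_mem_XS (P := fun r => ¬ IsPos r) (mt (hp r).1 hr) (γ r * t); rwa [← h] at this))
  pos i t := by rw [h, (h1 i).1, (h1 i).2.2.1]
  neg i t := by rw [h, (h1 i).2.1, (h1 i).2.2.2]

/-- data of triality -/
def dT : Dt := ⟨![2, 1, 3, 0], fun _ => false⟩

/-- data of the graph involution -/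
def dS : Dt := ⟨![0, 1, 3, 2], fun _ => false⟩

lemma real_tau : Rl tm dT := real_of_root (β := tm) lift_tau.gam (by decide +kernel) (by decide +kernel)

lemma real_sig : Rl sm2 dS := real_of_root (β := sm2) lift_sig.gam (by decide +kernel) (by decide +kernel)

lemma real_of_char {β : MulAut Gm} {χ : AddChar (Lat chevD4) (ZMod 3)ˣ}
    (h : ∀ r t, β (SG.x r t) = SG.x r (χ (coef r) * t)) {e : Fin 4 → Bool} (he : ∀ i, χ (coef (sm i)) = su (e i)) :
    Rl β ⟨id, e⟩ :=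
  real_of_root (ρ := id) h (fun _ => Iff.rfl) fun i =>
    ⟨rfl, rfl, by rw [he], by rw [coef_ng, AddChar.map_neg_eq_inv, he, su_inv]⟩

lemma conj_val {G : Type*} [Group G] {H : Subgroup G} {g : G} (h : g ∈ Subgroup.normalizer (H : Set G)) (x : H) :
    (H.normalizerMonoidHom ⟨g, h⟩ x).1 = g * x * g⁻¹ := rfl

lemma exists_diag (e : Fin 4 → Bool) : ∃ δ, Rl δ ⟨id, e⟩ := by
  let χ : AddChar (Lat chevD4) (ZMod 3)ˣ :=
    { toFun := fun v => ∏ i : Nd chevD4, su (e i) ^ v i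
      map_zero_eq_one' := by simp
      map_add_eq_mul' := fun v w => by simp [zpow_add, Finset.prod_mul_distrib] }
  have h1 : ∀ ψ : AddChar (Lat chevD4) (ZMod 3)ˣ, ∀ g ∈ chevD4.group (ZMod 3),
      torU ψ * g * (torU ψ)⁻¹ ∈ chevD4.group (ZMod 3) := fun ψ g hg => by
    rw [group_eq] at hg ⊢
    refine (stGL _ _).conj_XS (fun r _ t => ?_) hg
    rw [stGL_x, torU_conj_xU]; exact (stGL _ _).x_mem_XS trivial _
  have h2 : torU χ ∈ Subgroup.normalizer (chevD4.group (ZMod 3) : Set (GL chevD4.Idx (ZMod 3))) :=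
    CA.RGD.mem_normalizer_of_conj (h1 χ) fun g hg => by simpa using h1 χ⁻¹ g hg
  let δ : MulAut Gm := (chevD4.group (ZMod 3)).normalizerMonoidHom ⟨_, h2⟩
  have h3 : ∀ g : Gm, (δ g).1 = torU χ * g.1 * (torU χ)⁻¹ := fun g => conj_val h2 g
  refine ⟨δ, real_of_char (χ := χ) (fun r t => Subtype.ext ((h3 _).trans (torU_conj_xU χ r t))) fun i => ?_⟩
  have h4 : ∀ (c : Nd chevD4 → (ZMod 3)ˣ) (i : Nd chevD4), ∏ j, c j ^ coef (sim i) j = c i := fun c i => by
    rw [Finset.prod_eq_single i] <;> simp +contextual [coef_sim_apply]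
  exact h4 (fun j => su (e j)) i

lemma chP_sm (c : Fin 4 → (ZMod 3)ˣ) : chP (D := chevD4) c (coef (sm 0)) = c 1 ∧
    chP (D := chevD4) c (coef (sm 1)) = c 0 * c 2 * c 3 ∧ chP (D := chevD4) c (coef (sm 2)) = c 1 ∧
    chP (D := chevD4) c (coef (sm 3)) = c 1 := by
  have h : ∀ k i : Fin 4, pair (sm k) (sm i) = if k = i then 2 else if k = 1 ∨ i = 1 then -1 else 0 := by
    simp only [sm, pair_sim]; decide +kernel
  have h2 : ∀ i, chP (D := chevD4) c (coef (sm i)) = ∏ k : Fin 4, c k ^ pair (sm k) (sm i) := fun i => chP_coef _ _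
  simp only [h2, h, Fin.prod_univ_four]
  generalize c 0 = a; generalize c 1 = b; generalize c 2 = e; generalize c 3 = d
  revert a b e d; decide +kernel

/-- inner automorphisms -/
noncomputable abbrev Inn : Subgroup (MulAut Gm) := MulAut.conj.range

instance normalInn : Inn.Normal := ⟨by
  rintro _ ⟨g, rfl⟩ β
  exact ⟨β g, MulEquiv.ext fun x => by simp⟩⟩

lemma Rl.mem_Inn_iff {β : MulAut Gm} {a : Dt} (h : Rl β a) : β ∈ Inn ↔ a.inn := by
  constructor
  · rintro ⟨g, rfl⟩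
    obtain ⟨c, rfl⟩ := SG.mem_H.1 (mem_H_of_onto (SG.faithful cxF) RG_top h.U h.V)
    have h1 : ∀ i, SG.x (sm i) (chP c (coef (sm i)) * 1) = SG.x (sm (a.p i)) (su (a.e i) * 1) := fun i =>
      (SG.hP_conj_x c _ _).symm.trans (h.pos i 1)
    have h2 : ∀ i, a.p i = i := fun i => (sim_injective (SG.eq_of_x_eq (h1 i) (by simp))).symm
    have h3 : ∀ i, (chP c (coef (sm i)) : ZMod 3) = su (a.e i) := fun i => by
      have := h1 i
      rw [h2] at this
      simpa using SG.x_injective _ this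
    obtain ⟨k0, -, k2, k3⟩ := chP_sm c
    exact ⟨h2, su_inj (by rw [← h3, ← h3, k0, k2]), su_inj (by rw [← h3, ← h3, k0, k3])⟩
  · obtain ⟨p, e⟩ := a
    rintro ⟨h1, h2, h3⟩
    obtain rfl : p = id := funext h1
    obtain ⟨k0, k1, k2, k3⟩ := chP_sm ![su (e 1), su (e 0), 1, 1]
    refine ⟨SG.hP ![su (e 1), su (e 0), 1, 1], Rl.unique (real_of_char
      (χ := chP (D := chevD4) ![su (e 1), su (e 0), 1, 1]) (fun r t => ?_) fun i => ?_) h⟩
    · rw [MulAut.conj_apply]; exact SG.hP_conj_x _ r t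
    fin_cases i
    · exact k0
    · simpa using k1
    · exact k2.trans (congrArg su h2)
    · exact k3.trans (congrArg su h3)

lemma commute_iff {i k : Fin 4} (hik : i ≠ k) (a b : (ZMod 3)ˣ) :
    Commute (SG.x (sm i) (a : ZMod 3)) (SG.x (sm k) (b : ZMod 3)) ↔ i ≠ 1 ∧ k ≠ 1 := by
  have h1 : ∀ i k : Fin 4, i ≠ k → sm k ≠ sm i ∧ sm k ≠ ng (sm i) ∧ (i ≠ 1 ∧ k ≠ 1 →
      chevD4.commTerms (sm i) (sm k) = []) ∧ (¬ (i ≠ 1 ∧ k ≠ 1) → ∃ m : Rt chevD4, ∃ ε ∈ [1, -1],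
      chevD4.commTerms (sm i) (sm k) = [(m.1, ε, 1, 1)]) := by decide +kernel
  obtain ⟨h2, h3, h4, h5⟩ := h1 i k hik
  have h6 := SG.comm _ _ h2 h3 a b
  rw [← SG.wN_commTerms] at h6
  refine ⟨fun h => by_contra fun h7 => ?_, fun h => ?_⟩
  · obtain ⟨m, ε, hε, h8⟩ := h5 h7
    rw [h8, ← h.eq, left_eq_mul, StSys.wN, List.map_singleton, List.prod_singleton, SG.xN_val,
      SG.x_eq_one_iff] at h6
    simp only [List.mem_cons, List.not_mem_nil, or_false] at hε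
    rcases hε with rfl | rfl <;> simp at h6
  · rw [h4 h, StSys.wN] at h6
    exact (by simpa using h6.symm : _ * _ = _ * _)

lemma Rl.injective {β : MulAut Gm} {a : Dt} (h : Rl β a) : Function.Injective a.p := fun i j hij => by
  have h1 : β (SG.x (sm i) (su (a.e j))) = β (SG.x (sm j) (su (a.e i))) := by rw [h.pos, h.pos, hij, mul_comm]
  exact sim_injective (SG.eq_of_x_eq (β.injective h1) (by simp))

lemma Rl.p_one {β : MulAut Gm} {a : Dt} (h : Rl β a) : a.p 1 = 1 := by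
  obtain ⟨i, hi⟩ := h.injective.bijective_of_finite.2 1
  by_contra h1
  have h2 : i ≠ 1 := by rintro rfl; exact h1 hi
  obtain ⟨k, h3, h4⟩ : ∃ k, i ≠ k ∧ k ≠ 1 := by revert h2; clear h1 hi; revert i; decide
  have h5 := ((commute_iff h3 1 1).2 ⟨h2, h4⟩).map β
  rw [h.pos, h.pos, ← Units.val_mul, ← Units.val_mul, commute_iff (h.injective.ne h3)] at h5
  exact h5.1 hi

lemma exists_sign {β : MulAut Gm} {r s : Rt chevD4} (h : Onto β (SG.XR r) (SG.XR s)) :
    ∃ e, ∀ t, β (SG.x r t) = SG.x s (su e * t) := by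
  obtain ⟨c, hc⟩ := SG.mem_XR.1 ((h _).2 (SG.x_mem_XR r 1))
  obtain ⟨e, rfl⟩ := exists_su (t := c) (by
    rintro rfl
    rw [SG.x_zero, eq_comm, map_eq_one_iff _ β.injective, SG.x_eq_one_iff] at hc
    exact one_ne_zero hc)
  refine ⟨e, fun t => ?_⟩
  have : t = 0 ∨ t = 1 ∨ t = -1 := by revert t; decide
  rcases this with rfl | rfl | rfl
  · simp [SG.x_zero]
  · simp [hc]
  · rw [← SG.x_inv, map_inv, ← hc, SG.x_inv]; simp

lemma sign_eq {β : MulAut Gm} (hV : Onto β RG.V RG.V) {i j : Fin 4} {e d : Bool}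
    (h1 : ∀ t, β (SG.x (sm i) t) = SG.x (sm j) (su e * t)) (h2 : ∀ t, β (SG.x (ng (sm i)) t) = SG.x (ng (sm j)) (su d * t)) :
    d = e := by
  by_contra h
  have h3 : su d = - su e := by clear h1 h2; revert h; revert d e; decide
  have h4 : ∀ k : Fin 4, ∀ t, SG.x (ng (sm k)) t ∈ RG.V := fun k t =>
    RG.X_le_V ((rootSys cxF).not_pos_ng_sim k) (SG.x_mem_XR _ _)
  have h5 := h4 i ((nF (sm i) (sm i) 1 : (ZMod 3)ˣ) * 1)
  rw [← refl_self, ← SG.n_conj_x, ← hV] at h5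
  have h6 : β (SG.n (sm i) 1) = SG.x (sm j) (su d) * SG.n (sm j) (su d) * SG.x (sm j) (su d) := by
    simp only [SG.n_def, map_mul, ← mul_assoc, SG.add, su_inv]
    rw [mul_assoc _ (SG.x _ _) (SG.x _ _), SG.add, h1, h2, h3]
    have h0 : (su e : ZMod 3) * (1 : (ZMod 3)ˣ) = (-su e : (ZMod 3)ˣ) + (-su e : (ZMod 3)ˣ) := by
      generalize e = e; revert e; decide
    rw [h0]; simp
  have h7 : β (SG.x (sm i) 1) = SG.x (sm j) (su e) := by simpa using h1 1
  have h8 : SG.x (sm j) (su d) * SG.x (sm j) (su e) * (SG.x (sm j) (su d))⁻¹ = SG.x (sm j) (su e) := by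
    rw [SG.x_inv, SG.add, SG.add]; simp
  have h9 := eq_one_of_conj_mem (SG.faithful cxF).op (i := j) (z := SG.x (sm j) (su d))
    (x := SG.n (sm j) (su d) * SG.x (sm j) (su e) * (SG.n (sm j) (su d))⁻¹)
    (by rw [CA.RGD.Sys.op_X, CA.RGD.RootSys.ng_ng]; exact SG.x_mem_XR _ _)
    (by rw [SG.n_conj_x, refl_self]; exact SG.x_mem_XR _ _) (by rw [SG.n_conj_x, Ne, SG.x_eq_one_iff]; simp)
    (RG.op.U_le_Bo (RG.op_U.ge (by
      rw [map_mul, map_mul, map_inv, h6, h7] at h5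
      rw [← h8]; convert h5 using 1; group)))
  rw [SG.x_eq_one_iff] at h9
  simp at h9

theorem exists_real (α : MulAut Gm) : ∃ g a, Rl (MulAut.conj g * α) a := by
  obtain ⟨g, hU, hV⟩ := exists_onto_UV (SG.faithful cxF) (p := 3) RG_top
    (IsPGroup.of_card (by rw [SG.rgd_U, SG.card_XS closed_isPos fun _ => isPos_iff_ht.1, ZMod.card]))
    (fun h hh k hk => by
      obtain ⟨c, rfl⟩ := SG.mem_H.1 hh
      have h1 : c ^ 2 = 1 := funext fun i => (by decide : ∀ a : (ZMod 3)ˣ, a ^ 2 = 1) _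
      obtain ⟨m, hm⟩ : Odd (3 ^ k) := Odd.pow (by decide)
      rwa [hm, ← map_pow, pow_succ, pow_mul, h1, one_pow, one_mul] at hk) α
  have h0 : ∀ i : Fin 4, ∃ j : Fin 4, Onto (MulAut.conj g * α) (SG.XR (sm i)) (SG.XR (sm j)) ∧
      Onto (MulAut.conj g * α) (SG.XR (ng (sm i))) (SG.XR (ng (sm j))) :=
    exists_onto_simple (SG.faithful cxF) RG_top hU hV
  choose p hp hp' using h0
  choose e he using fun i => exists_sign (hp i)
  choose d hd using fun i => exists_sign (hp' i)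
  exact ⟨g, ⟨p, e⟩, hU, hV, he, fun i t => by rw [hd, sign_eq hV (he i) (hd i)]⟩

lemma chk_Dt : ∀ a0 a2 a3 : Fin 4, Function.Injective ![a0, 1, a2, a3] → ∀ e0 e1 e2 e3 : Bool,
    let a : Dt := ⟨![a0, 1, a2, a3], ![e0, e1, e2, e3]⟩
    ¬ a.inn → (a * a * a).inn → ∀ b0 b2 b3 : Fin 4, Function.Injective ![b0, 1, b2, b3] → ∀ f0 f1 f2 f3 : Bool,
    let b : Dt := ⟨![b0, 1, b2, b3], ![f0, f1, f2, f3]⟩
    ¬ b.inn → (b * b).inn → (a * b * (a * b)).inn → ∃ d2 d3 : Bool,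
    let δ : Dt := ⟨id, ![false, false, d2, d3]⟩
    ((δ * a * δ * dT).inn ∨ (δ * a * δ * dT * dT).inn) ∧
      ((δ * b * δ * dS).inn ∨ (δ * b * δ * dS * dT).inn ∨ (δ * b * δ * dS * dT * dT).inn) := by
  decide +kernel

lemma Rl.eta {β : MulAut Gm} {a : Dt} (h : Rl β a) :
    Rl β ⟨![a.p 0, 1, a.p 2, a.p 3], ![a.e 0, a.e 1, a.e 2, a.e 3]⟩ := by
  convert h
  · funext i; fin_cases i <;> simp [h.p_one]
  · funext i; fin_cases i <;> rfl

/-- projection to the outer automorphism group -/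
noncomputable abbrev ou : MulAut Gm →* MulAut Gm ⧸ Inn := QuotientGroup.mk' Inn

lemma Rl.ou_eq_one {β : MulAut Gm} {a : Dt} (h : Rl β a) : ou β = 1 ↔ a.inn :=
  (QuotientGroup.eq_one_iff _).trans h.mem_Inn_iff

lemma exists_real_ou (o : MulAut Gm ⧸ Inn) : ∃ β a, Rl β a ∧ ou β = o := by
  obtain ⟨α, rfl⟩ := QuotientGroup.mk'_surjective _ o
  obtain ⟨g, a, h⟩ := exists_real α
  exact ⟨_, a, h, by rw [map_mul, show ou (MulAut.conj g) = 1 from (QuotientGroup.eq_one_iff _).2 ⟨g, rfl⟩, one_mul]⟩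

theorem exists_conj_out {x y : MulAut Gm ⧸ Inn} (h1 : x ≠ 1) (h2 : x * x * x = 1) (h3 : y ≠ 1) (h4 : y * y = 1)
    (h5 : x * y * (x * y) = 1) : ∃ δ, Subgroup.closure {ou δ * x * (ou δ)⁻¹, ou δ * y * (ou δ)⁻¹} =
      Subgroup.closure {ou tm, ou sm2} := by
  obtain ⟨A, a, ha, rfl⟩ := exists_real_ou x
  obtain ⟨B, b, hb, rfl⟩ := exists_real_ou y
  have ha := ha.eta
  have hb := hb.eta
  obtain ⟨d2, d3, k1, k2⟩ := chk_Dt _ _ _ ha.injective _ _ _ _ (mt ha.ou_eq_one.2 h1)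
    (((ha.mul ha).mul ha).ou_eq_one.1 h2) _ _ _ hb.injective _ _ _ _ (mt hb.ou_eq_one.2 h3)
    ((hb.mul hb).ou_eq_one.1 h4) (((ha.mul hb).mul (ha.mul hb)).ou_eq_one.1 h5)
  obtain ⟨δ, hδ⟩ := exists_diag ![false, false, d2, d3]
  have k3 : ou δ * ou δ = 1 := (hδ.mul hδ).ou_eq_one.2 (by clear k1 k2 hδ; revert d2 d3; decide)
  have k4 : ou tm * ou tm * ou tm = 1 := ((real_tau.mul real_tau).mul real_tau).ou_eq_one.2 (by decide)
  have ha' := (hδ.mul ha).mul hδ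
  have hb' := ((hδ.mul hb).mul hδ).mul real_sig
  rw [← (ha'.mul real_tau).ou_eq_one, ← ((ha'.mul real_tau).mul real_tau).ou_eq_one] at k1
  rw [← hb'.ou_eq_one, ← (hb'.mul real_tau).ou_eq_one, ← ((hb'.mul real_tau).mul real_tau).ou_eq_one] at k2
  refine ⟨δ, ?_⟩
  simp only [map_mul] at k1 k2
  rw [inv_eq_of_mul_eq_one_right k3]
  generalize ou δ * ou A * ou δ = X at k1 ⊢
  generalize ou δ * ou B * ou δ = Y at k2 ⊢
  generalize ou tm = t at k1 k2 k4 ⊢
  generalize ou sm2 = s at k2 ⊢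
  have key : ∀ K : Subgroup (MulAut Gm ⧸ Inn), X ∈ K ↔ t ∈ K := fun K => by
    rcases k1 with k1 | k1
    · rw [eq_inv_of_mul_eq_one_left k1, inv_mem_iff]
    · rw [mul_right_cancel (mul_right_cancel (k1.trans k4.symm))]
  have key2 : ∀ K : Subgroup (MulAut Gm ⧸ Inn), t ∈ K → (Y ∈ K ↔ s ∈ K) := fun K ht => by
    rcases k2 with k2 | k2 | k2
    · rw [eq_inv_of_mul_eq_one_left k2, inv_mem_iff]
    · rw [eq_inv_of_mul_eq_one_left ((mul_assoc _ _ _).symm.trans k2), inv_mem_iff, mul_mem_cancel_right ht]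
    · rw [mul_assoc, mul_assoc] at k2
      rw [eq_inv_of_mul_eq_one_left k2, inv_mem_iff, mul_mem_cancel_right (mul_mem ht ht)]
  refine eq_of_forall_ge_iff fun K => ?_
  simp only [Subgroup.closure_le, Set.insert_subset_iff, Set.singleton_subset_iff, SetLike.mem_coe, key]
  exact and_congr_right (key2 K)

/-- the extension by the graph automorphisms -/
noncomputable def K0 : Subgroup (MulAut Gm) := (Subgroup.closure {ou tm, ou sm2}).comap ou

theorem exists_emb {G : Type*} [Group G] [Finite G] {L : Subgroup G} (hL : L = generalizedFittingSubgroup G)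
    (e0 : L ≃* Gm) [L.Normal] (q : G ⧸ L ≃* Equiv.Perm (Fin 3)) : ∃ (e : L ≃* Gm) (φ : G →* MulAut Gm),
      Function.Injective φ ∧ φ.range = K0 ∧ ∀ g l, φ g (e l) = e (MulAut.conjNormal g l) := by
  have main : ∀ e : L ≃* Gm, ∃ φ : G →* MulAut Gm, (∀ g l, φ g (e l) = e (MulAut.conjNormal g l)) ∧
      Function.Injective φ ∧ (∀ g, ou (φ g) = 1 ↔ g ∈ L) ∧ Inn ≤ φ.range := fun e => by
    let φ : G →* MulAut Gm := (MulAut.congr e).toMonoidHom.comp MulAut.conjNormal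
    have h1 : ∀ g l, φ g (e l) = e (MulAut.conjNormal g l) := fun g l => by simp [φ]
    have h2 : ∀ l : L, φ l = MulAut.conj (e l) := fun l => MulEquiv.ext fun x => by
      obtain ⟨x, rfl⟩ := e.surjective x
      rw [h1, MulAut.conj_apply, ← map_inv, ← map_mul, ← map_mul]; rfl
    have h3 : Function.Injective φ := (injective_iff_map_eq_one _).2 fun g hg => by
      have h4 : ∀ l ∈ L, g * l * g⁻¹ = l := fun l hl =>
        congrArg Subtype.val (e.injective (a₂ := ⟨l, hl⟩) ((h1 g ⟨l, hl⟩).symm.trans (by rw [hg]; rfl)))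
      have h5 : g ∈ L := hL ▸ CA.FG.Comp.centralizer_Fstar_le (Subgroup.mem_centralizer_iff.2 fun l hl =>
        (mul_inv_eq_iff_eq_mul.1 (h4 l (hL ▸ hl))).symm)
      have h6 : e ⟨g, h5⟩ ∈ Subgroup.center Gm := Subgroup.mem_center_iff.2 fun x => by
        have := congrArg (fun β : MulAut Gm => β x) ((h2 ⟨g, h5⟩).symm.trans hg)
        simp only [MulAut.conj_apply, MulAut.one_apply] at this
        exact (mul_inv_eq_iff_eq_mul.1 this).symm
      rw [center_Gm, Subgroup.mem_bot, map_eq_one_iff _ e.injective] at h6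
      exact congrArg Subtype.val h6
    refine ⟨φ, h1, h3, fun g => (QuotientGroup.eq_one_iff _).trans ⟨fun ⟨x, hx⟩ => ?_, fun hg => ⟨_, (h2 ⟨g, hg⟩).symm⟩⟩,
      fun _ ⟨x, hx⟩ => ⟨_, (h2 (e.symm x)).trans (by simpa using hx)⟩⟩
    obtain ⟨l, rfl⟩ := e.surjective x
    exact h3 ((h2 l).trans hx) ▸ l.2
  obtain ⟨φ, h1, h2, h3, h4⟩ := main e0
  let ψ : G →* Equiv.Perm (Fin 3) := q.toMonoidHom.comp (QuotientGroup.mk' L)
  have h5 : ∀ g, ou (φ g) = 1 ↔ ψ g = 1 := fun g => by rw [h3]; simp [ψ]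
  have h6 : Function.Surjective ψ := q.surjective.comp (QuotientGroup.mk'_surjective L)
  obtain ⟨a, ha⟩ := h6 (finRotate 3)
  obtain ⟨b, hb⟩ := h6 (Equiv.swap 0 1)
  obtain ⟨δ, hδ⟩ := exists_conj_out (x := ou (φ a)) (y := ou (φ b)) (by rw [Ne, h5, ha]; decide)
    (by simp only [← map_mul, h5]; simp only [map_mul, ha]; decide) (by rw [Ne, h5, hb]; decide)
    (by simp only [← map_mul, h5]; simp only [map_mul, hb]; decide)
    (by simp only [← map_mul, h5]; simp only [map_mul, ha, hb]; decide)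
  obtain ⟨φ', k1, k2, k3, k4⟩ := main (e0.trans δ)
  have k5 : ∀ g, φ' g = δ * φ g * δ⁻¹ := fun g => MulEquiv.ext fun x => by
    obtain ⟨x, rfl⟩ := (e0.trans δ).surjective x
    rw [k1]; simp [h1]
  refine ⟨_, φ', k2, ?_, k1⟩
  rw [K0, ← hδ, ← map_inv, ← map_mul, ← map_mul, ← map_mul, ← map_mul, ← k5, ← k5,
    ← Subgroup.comap_map_eq_self (f := ou) (H := φ'.range) (by rwa [QuotientGroup.ker_mk'])]
  congr 1
  refine le_antisymm ?_ ((Subgroup.closure_le _).2 (by rintro _ (rfl | rfl) <;> exact ⟨_, ⟨_, rfl⟩, rfl⟩))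
  rintro _ ⟨_, ⟨g, rfl⟩, rfl⟩
  have k6 : ∀ u : Equiv.Perm (Fin 3), ∃ i j : Fin 3, u = finRotate 3 ^ i.1 * Equiv.swap 0 1 ^ j.1 := by decide
  obtain ⟨i, j, hij⟩ := k6 (ψ g)
  have k7 : ou (φ' (g * (a ^ i.1 * b ^ j.1)⁻¹)) = 1 := by
    rw [k3, ← h3, h5, map_mul, map_inv, map_mul, map_pow, map_pow, ha, hb, hij, mul_inv_cancel]
  simp only [map_mul, map_inv, map_pow, mul_inv_eq_one] at k7
  rw [k7]
  exact mul_mem (pow_mem (Subgroup.subset_closure (by simp)) _) (pow_mem (Subgroup.subset_closure (by simp)) _)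

theorem nonempty_equiv_ext {G G' : Type*} [Group G] [Finite G] [Group G'] [Finite G'] {L : Subgroup G}
    {L' : Subgroup G'} (hL : L = generalizedFittingSubgroup G) (hL' : L' = generalizedFittingSubgroup G')
    (hF : Nonempty (L ≃* POmega (ZMod 3) (quadFormPlus 4 (ZMod 3))))
    (hF' : Nonempty (L' ≃* POmega (ZMod 3) (quadFormPlus 4 (ZMod 3)))) [L.Normal] [L'.Normal]
    (hq : Nonempty (G ⧸ L ≃* Equiv.Perm (Fin 3))) (hq' : Nonempty (G' ⧸ L' ≃* Equiv.Perm (Fin 3))) :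
    Nonempty (G ≃* G') := by
  obtain ⟨i⟩ : Nonempty (Gm ≃* POmega (ZMod 3) (quadFormPlus 4 (ZMod 3))) := Cfsg.Agent.S1082.result
  obtain ⟨-, φ, h1, h2, -⟩ := exists_emb hL (hF.some.trans i.symm) hq.some
  obtain ⟨-, φ', h1', h2', -⟩ := exists_emb hL' (hF'.some.trans i.symm) hq'.some
  exact ⟨((MonoidHom.ofInjective h1).trans (MulEquiv.subgroupCongr (h2.trans h2'.symm))).trans
    (MonoidHom.ofInjective h1').symm⟩

/-- representatives of the classes -/
noncomputable def ym (k : ℕ) : Gm := yy k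

lemma ym_cube {k : ℕ} (hk : k < 13) : ym k ^ 3 = 1 := yy_cube hk
lemma ym_ne {k : ℕ} (hk : k < 13) : ym k ≠ 1 := yy_ne hk
lemma exists_isConj_ym {y : Gm} (hy : y ^ 3 = 1) (h1 : y ≠ 1) : ∃ k < 13, IsConj y (ym k) := exists_isConj_yy hy h1
lemma eq_of_isConj_ym {i j : ℕ} (hi : i < 13) (hj : j < 13) (h : IsConj (ym i) (ym j) ∨ IsConj (ym i) (ym j)⁻¹) :
    i = j := eq_of_isConj_yy hi hj h
lemma tm_ym {k : ℕ} (hk : k < 13) : IsConj (tm (ym k)) (ym (CT.getD k (0, [])).1) := tau_yy hk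
lemma sm2_ym {k : ℕ} (hk : k < 13) : IsConj (sm2 (ym k)) (ym (CS.getD k (0, [])).1) := sig_yy hk

/-- the orbit of a class -/
def orb (k : ℕ) : ℕ := [0, 1, 1, 1, 2, 2, 2, 3, 4, 4, 4, 5, 6].getD k 0

/-- representatives of the orbits -/
def orep (k : ℕ) : ℕ := [0, 1, 4, 7, 8, 11, 12].getD k 0

lemma isConj_map (β : MulAut Gm) {x y : Gm} (h : IsConj x y) : IsConj (β x) (β y) := β.toMonoidHom.map_isConj h

lemma Inn_le_K0 : Inn ≤ K0 := fun β h => by
  rw [K0, Subgroup.mem_comap, show ou β = 1 from (QuotientGroup.eq_one_iff _).2 h]; exact one_mem _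

lemma tm_mem_K0 : tm ∈ K0 := Subgroup.subset_closure (by simp)

lemma orb_eq {β : MulAut Gm} (hβ : β ∈ K0) : ∀ k < 13, ∃ k' < 13, orb k' = orb k ∧ IsConj (β (ym k)) (ym k') := by
  let P : Subgroup (MulAut Gm) :=
    { carrier := {β | ∀ k < 13, ∃ k' < 13, orb k' = orb k ∧ IsConj (β (ym k)) (ym k')}
      one_mem' := fun k hk => ⟨k, hk, rfl, IsConj.refl _⟩
      mul_mem' := fun {β γ} hβ hγ k hk => by
        obtain ⟨k1, h1, h2, h3⟩ := hγ k hk
        obtain ⟨k2, h4, h5, h6⟩ := hβ k1 h1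
        exact ⟨k2, h4, h5.trans h2, (isConj_map β h3).trans h6⟩
      inv_mem' := fun {β} hβ k hk => by
        obtain ⟨k1, h1, h2⟩ := exists_isConj_ym (y := β⁻¹ (ym k)) (by rw [← map_pow, ym_cube hk, map_one])
          (by simpa using ym_ne hk)
        obtain ⟨k2, h4, h5, h6⟩ := hβ k1 h1
        have h7 := (isConj_map β h2).trans h6
        rw [MulAut.apply_inv_self] at h7
        exact ⟨k1, h1, by rw [← h5, eq_of_isConj_ym hk h4 (Or.inl h7)], h2⟩ }
  have h1 : K0 ≤ P := by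
    rw [← Subgroup.comap_map_eq_self (f := ou) (H := P) (by
      rw [QuotientGroup.ker_mk']
      rintro _ ⟨g, rfl⟩ k hk
      exact ⟨k, hk, rfl, (isConj_iff.2 ⟨g, rfl⟩).symm⟩)]
    refine Subgroup.comap_mono ((Subgroup.closure_le _).2 ?_)
    rintro _ (rfl | rfl) <;> refine Subgroup.mem_map_of_mem _ fun k hk => ?_
    · exact ⟨_, (chk_CT k hk).1, by revert k; decide +kernel, tm_ym hk⟩
    · exact ⟨_, (chk_CS k hk).1, by revert k; decide +kernel, sm2_ym hk⟩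
  exact h1 hβ

lemma exists_orep {x : Gm} (hx : x ^ 3 = 1) (h1 : x ≠ 1) : ∃ i < 7, ∃ β ∈ K0, β x = ym (orep i) := by
  have key : ∀ k < 13, ∀ x, IsConj x (ym k) → (∃ β ∈ K0, β x = ym k) := fun k _ x h => by
    obtain ⟨g, hg⟩ := isConj_iff.1 h
    exact ⟨_, Inn_le_K0 ⟨g, rfl⟩, hg⟩
  have step : ∀ k < 13, ∀ x, (∃ β ∈ K0, β x = ym k) → ∃ β ∈ K0, β x = ym (CT.getD k (0, [])).1 :=
    fun k hk x ⟨β, hβ, h⟩ => by
      obtain ⟨γ, hγ, h'⟩ := key _ (chk_CT k hk).1 _ (tm_ym hk)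
      exact ⟨γ * tm * β, mul_mem (mul_mem hγ tm_mem_K0) hβ, by simp [h, h']⟩
  obtain ⟨k, hk, h⟩ := exists_isConj_ym hx h1
  have h2 := key k hk x h
  have h3 := step _ hk x h2
  have h4 := step _ (chk_CT k hk).1 x h3
  have h5 : ∀ k < 13, ∃ i < 7, k = orep i ∨ (CT.getD k (0, [])).1 = orep i ∨
      (CT.getD (CT.getD k (0, [])).1 (0, [])).1 = orep i := by decide +kernel
  obtain ⟨i, hi, h6 | h6 | h6⟩ := h5 k hk
  exacts [⟨i, hi, h6 ▸ h2⟩, ⟨i, hi, h6 ▸ h3⟩, ⟨i, hi, h6 ▸ h4⟩]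

theorem classes13 : ∃ Y : Fin 13 → Subgroup (POmega (ZMod 3) (quadFormPlus 4 (ZMod 3))), (∀ i, Nat.card (Y i) = 3) ∧
    (∀ i j, (∃ g, (Y i).map (MulAut.conj g).toMonoidHom = Y j) → i = j) ∧
    (∀ X : Subgroup _, Nat.card X = 3 → ∃ i, ∃ g, X.map (MulAut.conj g).toMonoidHom = Y i) := by
  obtain ⟨i⟩ : Nonempty (Gm ≃* POmega (ZMod 3) (quadFormPlus 4 (ZMod 3))) := Cfsg.Agent.S1082.result
  exact subgroup_classes (z := ym) (fun _ => ym_cube) (fun _ => ym_ne) (fun _ => exists_isConj_ym)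
    (fun _ hi _ hj => eq_of_isConj_ym hi hj) i

theorem orbits7 {G : Type*} [Group G] [Finite G] {L : Subgroup G} (hL : L = generalizedFittingSubgroup G)
    (hF : Nonempty (L ≃* POmega (ZMod 3) (quadFormPlus 4 (ZMod 3)))) [L.Normal]
    (hq : Nonempty (G ⧸ L ≃* Equiv.Perm (Fin 3))) : ∃ Y : Fin 7 → Subgroup G, (∀ i, Y i ≤ L ∧ Nat.card (Y i) = 3) ∧
      (∀ i j, (∃ g : G, (Y i).map (MulAut.conj g).toMonoidHom = Y j) → i = j) ∧
      ∀ X : Subgroup G, X ≤ L → Nat.card X = 3 → ∃ i, ∃ g : G, X.map (MulAut.conj g).toMonoidHom = Y i := by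
  obtain ⟨i⟩ : Nonempty (Gm ≃* POmega (ZMod 3) (quadFormPlus 4 (ZMod 3))) := Cfsg.Agent.S1082.result
  obtain ⟨e, φ, -, h2, h3⟩ := exists_emb hL (hF.some.trans i.symm) hq.some
  have h4 : ∀ i < 7, orep i < 13 ∧ orb (orep i) = i := by decide
  have h5 : ∀ k < 13, (e.symm (ym k) : G) ^ 3 = 1 := fun k hk => by
    rw [← Subgroup.coe_pow, ← map_pow, ym_cube hk, map_one, Subgroup.coe_one]
  have h6 : ∀ k < 13, (e.symm (ym k) : G) ≠ 1 := fun k hk => by simpa using ym_ne hk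
  refine ⟨fun i => Subgroup.zpowers (e.symm (ym (orep i)) : G), fun i => ⟨by simp, card_zpowers_three
    (h5 _ (h4 i i.2).1) (h6 _ (h4 i i.2).1)⟩, fun i j ⟨g, hg⟩ => Fin.ext ?_, fun X hX hc => ?_⟩
  · beta_reduce at hg
    rw [map_conj_zpowers] at hg
    have h7 := eq_or_inv_of_zpowers (x := g * e.symm (ym (orep i)) * g⁻¹) (h5 _ (h4 j j.2).1)
      (by simpa using ym_ne (h4 i i.2).1) (hg ▸ Subgroup.mem_zpowers _)
    obtain ⟨k, hk, h8, h9⟩ := orb_eq (h2 ▸ ⟨g, rfl⟩ : φ g ∈ K0) _ (h4 i i.2).1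
    rw [← e.apply_symm_apply (ym (orep i)), h3] at h9
    rw [← (h4 i i.2).2, ← (h4 j j.2).2, ← h8, eq_of_isConj_ym hk (h4 j j.2).1 (h7.imp (fun h => ?_) fun h => ?_)]
    · rw [show MulAut.conjNormal g (e.symm (ym (orep i))) = e.symm (ym (orep j)) from Subtype.ext h] at h9
      simpa using h9.symm
    · rw [show MulAut.conjNormal g (e.symm (ym (orep i))) = (e.symm (ym (orep j)))⁻¹ from Subtype.ext h] at h9
      simpa using h9.symm
  · obtain ⟨x, hx, hx1, rfl⟩ := exists_gen_three hc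
    have hxL : x ∈ L := hX (Subgroup.mem_zpowers x)
    obtain ⟨i, hi, β, hβ, h⟩ := exists_orep (x := e ⟨x, hxL⟩)
      (by rw [← map_pow, show (⟨x, hxL⟩ : L) ^ 3 = 1 from Subtype.ext hx, map_one]) (by simpa using hx1)
    rw [← h2] at hβ
    obtain ⟨g, rfl⟩ := hβ
    refine ⟨⟨i, hi⟩, g, ?_⟩
    dsimp only
    rw [map_conj_zpowers, ← h, h3, e.symm_apply_apply]; rfl

theorem realizeEqns_O3D4Aut : True := by
  have := @CA.O3.tm.eq_1
  have := @CA.O3.tm.eq_def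
  have := @CA.O3.tm.congr_simp
  have := @CA.O3.sm2.eq_1
  have := @CA.O3.sm2.eq_def
  have := @CA.O3.sm2.congr_simp
  have := @CA.O3.ou.eq_1
  have := @CA.O3.ou.eq_def
  have := @CA.O3.ou.congr_simp
  have := @CA.O3.dT.eq_1
  have := @CA.O3.dT.eq_def
  have := @CA.O3.dT.congr_simp
  have := @CA.O3.SG.eq_1
  have := @CA.O3.SG.eq_def
  have := @CA.O3.SG.congr_simp
  have := @CA.O3.cxM.eq_1
  have := @CA.O3.cxM.eq_def
  have := @CA.O3.cxM.congr_simp
  have := @CA.O3.sm.eq_1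
  have := @CA.O3.sm.eq_def
  have := @CA.O3.sm.congr_simp
  have := @CA.O3.ym.eq_1
  have := @CA.O3.ym.eq_def
  have := @CA.O3.ym.congr_simp
  have := @CA.O3.K0.eq_1
  have := @CA.O3.K0.eq_def
  have := @CA.O3.K0.congr_simp
  have := @CA.O3.dS.eq_1
  have := @CA.O3.dS.eq_def
  have := @CA.O3.dS.congr_simp
  have := @CA.O3.Dt.inn.eq_1
  have := @CA.O3.Dt.inn.eq_def
  have := @CA.O3.Dt.inn.congr_simp
  have := @CA.O3.Gm.eq_1
  have := @CA.O3.Gm.eq_def
  have := @CA.O3.Gm.congr_simp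
  have := @CA.O3.Inn.eq_1
  have := @CA.O3.Inn.eq_def
  have := @CA.O3.Inn.congr_simp
  have := @CA.O3.RG.eq_1
  have := @CA.O3.RG.eq_def
  have := @CA.O3.RG.congr_simp
  have := @CA.O3.orep.eq_1
  have := @CA.O3.orep.eq_def
  have := @CA.O3.orep.congr_simp
  have := @CA.O3.orb.eq_1
  have := @CA.O3.orb.eq_def
  have := @CA.O3.orb.congr_simp
  have := @CA.O3.su.eq_1
  have := @CA.O3.su.eq_def
  have := @CA.O3.su.congr_simp
  trivial

end CA.O3
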